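import Cfsg.Prelude.Def_Involutions
import Cfsg.Agent.H77.JankoReeSetup
import Cfsg.Agent.H28.StronglyEmbedded
import Cfsg.Agent.H1.PSLSimple

/-!
# Overgroups of the involution centraliser `2 × PSL₂(q)`

In a group with an abelian Sylow 2-subgroup and centraliser data `D` at `t`, an overgroup of
`C(t)` in which `t` is not isolated is strongly embedded.
-/

set_option autoImplicit false
set_option linter.style.haveILetI false

open Matrix MatrixGroups
open scoped Pointwise

namespace Cfsg.Agent.H23.S1245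

open Cfsg.Agent.H77.JankoRee

variable {G : Type*} [Group G] [Finite G] {F : Type*} [Field F] [Fintype F]

theorem S_comm {t : G} (D : Data t F) {a b : G} (ha : a ∈ (D.S : Subgroup G))
    (hb : b ∈ (D.S : Subgroup G)) : a * b = b * a := by
  have h := congrArg (fun z => a * z * b) (D.S_sq _ (mul_mem ha hb))
  simpa [mul_assoc, D.S_sq a ha, D.S_sq b hb, ← mul_assoc a a] using h.symm

theorem S_le_centralizer {t : G} (D : Data t F) :
    (D.S : Subgroup G) ≤ Subgroup.centralizer ({t} : Set G) := fun s hs =>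
  Subgroup.mem_centralizer_singleton_iff.2 (S_comm D hs D.t_mem)

/-- Every 2-element of an overgroup of `C(t)` is conjugate there into the Sylow subgroup `D.S`. -/
theorem exists_conj_mem_S {t : G} (D : Data t F) {M : Subgroup G} (hS : (D.S : Subgroup G) ≤ M)
    {s : G} (hs : s ∈ M) (hs2 : orderOf s = 2) : ∃ m ∈ M, m * s * m⁻¹ ∈ (D.S : Subgroup G) := by
  haveI : Fact (Nat.Prime 2) := ⟨Nat.prime_two⟩
  obtain ⟨Q, hQ⟩ := (IsPGroup.of_card (n := 1)
    (by rw [Nat.card_zpowers, Subgroup.orderOf_mk, hs2, pow_one]) :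
      IsPGroup 2 (Subgroup.zpowers (⟨s, hs⟩ : M))).exists_le_sylow
  let P : Sylow 2 M := D.S.subtype hS
  obtain ⟨m, hm⟩ := MulAction.exists_smul_eq M Q P
  refine ⟨m, m.2, ?_⟩
  have h1 : MulAut.conj m • (⟨s, hs⟩ : M) ∈ MulAut.conj m • (Q : Subgroup M) :=
    Subgroup.smul_mem_pointwise_smul _ _ _ (hQ (Subgroup.mem_zpowers _))
  rw [← Sylow.coe_subgroup_smul] at h1
  have h2 : MulAut.conj m • (⟨s, hs⟩ : M) ∈ ((m • Q : Sylow 2 M) : Subgroup M) := h1
  rw [hm, Sylow.coe_subtype, Subgroup.mem_subgroupOf] at h2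
  exact h2

/-- If `t` is not isolated in an overgroup of its centraliser, it is conjugate there to every
involution of the Sylow subgroup. -/
theorem fusion_full {t : G} (D : Data t F) (ht : orderOf t = 2) {M : Subgroup G}
    (hC : Subgroup.centralizer ({t} : Set G) ≤ M) {m₀ : G} (hm₀ : m₀ ∈ M)
    (hcm : Commute t (m₀ * t * m₀⁻¹)) (hne : m₀ * t * m₀⁻¹ ≠ t) :
    ∀ s ∈ (D.S : Subgroup G), s ≠ 1 → ∃ m ∈ M, m * t * m⁻¹ = s := by
  classical
  haveI : Fact (Nat.Prime 2) := ⟨Nat.prime_two⟩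
  have ht1 : t ≠ 1 := fun h => by simp [h] at ht
  have hSM : (D.S : Subgroup G) ≤ M := (S_le_centralizer D).trans hC
  obtain ⟨hxN, hxfix⟩ := D.x_facts
  set x := D.j D.x with hx
  have hxC : x ∈ Subgroup.centralizer ({t} : Set G) := D.j_mem D.x
  have hxM : x ∈ M := hC hxC
  have hxt : x * t * x⁻¹ = t := mul_inv_eq_iff_eq_mul.2 (Subgroup.mem_centralizer_singleton_iff.1 hxC)
  have hx3 : ∀ u : G, x * (x * (x * u * x⁻¹) * x⁻¹) * x⁻¹ = u := by
    intro u
    have h3 : x ^ 3 = 1 := by rw [hx, ← map_pow, ← D.x_order, pow_orderOf_eq_one, map_one]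
    calc x * (x * (x * u * x⁻¹) * x⁻¹) * x⁻¹ = x ^ 3 * u * (x ^ 3)⁻¹ := by simp [pow_succ, mul_assoc]
      _ = u := by rw [h3]; simp
  let T : Set G := (D.S : Set G) \ {1}
  have hT7 : T.ncard = 7 := by
    show (((D.S : Subgroup G) : Set G) \ {1}).ncard = 7
    rw [Set.ncard_sdiff_singleton_of_mem (one_mem (D.S : Subgroup G)), ← Nat.card_coe_set_eq]
    show Nat.card (D.S : Subgroup G) - 1 = 7
    rw [D.S_card]
  let O : Set G := {s | s ∈ (D.S : Subgroup G) ∧ ∃ m ∈ M, m * t * m⁻¹ = s}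
  have hOT : O ⊆ T := by
    rintro s ⟨hs, m, -, rfl⟩
    exact ⟨hs, by simpa using ht1⟩
  have htO : t ∈ O := ⟨D.t_mem, 1, one_mem _, by simp⟩
  have himg : ∀ u ∈ (D.S : Subgroup G), x * u * x⁻¹ ∈ (D.S : Subgroup G) := fun u hu =>
    (Subgroup.mem_normalizer_iff.1 hxN u).1 hu
  have hxO : ∀ u ∈ O, x * u * x⁻¹ ∈ O := by
    rintro u ⟨hu, m, hm, rfl⟩
    exact ⟨himg _ hu, x * m, mul_mem hxM hm, by group⟩
  have hout : ∀ u, u ∉ O → x * u * x⁻¹ ∉ O := fun u hu hm => hu (by
    have := hxO _ (hxO _ hm); rwa [hx3] at this)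
  have htriple : ∀ u ∈ (D.S : Subgroup G), u ≠ 1 → u ≠ t →
      ({u, x * u * x⁻¹, x * (x * u * x⁻¹) * x⁻¹} : Finset G).card = 3 ∧
        x * u * x⁻¹ ≠ t ∧ x * (x * u * x⁻¹) * x⁻¹ ≠ t := by
    intro u hu hu1 hut
    have hne1 : x * u * x⁻¹ ≠ u := fun e => by rcases hxfix u hu e with h | h <;> contradiction
    have hinj : ∀ v w : G, x * v * x⁻¹ = x * w * x⁻¹ → v = w := fun v w h => by simpa using h
    have hat : x * u * x⁻¹ ≠ t := fun e => hut (hinj u t (e.trans hxt.symm))
    have hub : u ≠ x * (x * u * x⁻¹) * x⁻¹ := fun e => hne1 (by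
      have h3 := hx3 u
      rw [← e] at h3
      exact h3)
    refine ⟨?_, hat, fun e => hat (hinj _ t (e.trans hxt.symm))⟩
    rw [Finset.card_insert_of_notMem (by simp [Ne.symm hne1, hub]),
      Finset.card_insert_of_notMem (by
        simp only [Finset.mem_singleton]
        exact fun e => hne1 (hinj u _ e).symm),
      Finset.card_singleton]
  -- the number of conjugates is odd
  let K : Subgroup G := Subgroup.normalizer ((D.S : Subgroup G) : Set G) ⊓ M
  have hfus : ∀ s ∈ O, ∃ k ∈ K, k * t * k⁻¹ = s := by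
    rintro s ⟨hs, m, hm, rfl⟩
    let P : Sylow 2 M := D.S.subtype hSM
    have hmemP : ∀ p : M, p ∈ (P : Subgroup M) ↔ (p : G) ∈ (D.S : Subgroup G) := fun p => Iff.rfl
    haveI : IsMulCommutative (P : Subgroup M) := ⟨⟨fun a b => by
      have ha : ((a : M) : G) ∈ (D.S : Subgroup G) := (hmemP _).1 a.2
      have hb : ((b : M) : G) ∈ (D.S : Subgroup G) := (hmemP _).1 b.2
      exact Subtype.ext (Subtype.ext (S_comm D ha hb))⟩⟩
    have h1 : (⟨t, hSM D.t_mem⟩ : M) ∈ (P : Subgroup M) := by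
      exact (hmemP _).2 D.t_mem
    have h2 : (⟨m, hm⟩ : M)⁻¹⁻¹ * ⟨t, hSM D.t_mem⟩ * (⟨m, hm⟩ : M)⁻¹ ∈ (P : Subgroup M) := by
      rw [inv_inv]; exact (hmemP _).2 hs
    obtain ⟨n, hn, he⟩ := Sylow.conj_eq_normalizer_conj_of_mem P _ _ h1 h2
    rw [inv_inv] at he
    refine ⟨(n : G)⁻¹, inv_mem ⟨?_, n.2⟩, ?_⟩
    · show (n : G) ∈ Subgroup.normalizer ((D.S : Subgroup G) : Set G)
      rw [Subgroup.mem_normalizer_iff]
      intro g
      constructor
      · intro hg
        exact (hmemP _).1 ((Subgroup.mem_normalizer_iff.1 hn ⟨g, hSM hg⟩).1 ((hmemP _).2 hg))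
      · intro hg
        have hgM : g ∈ M := by
          have := mul_mem (mul_mem (inv_mem n.2) (hSM hg)) n.2
          simpa [mul_assoc] using this
        exact (hmemP _).1 ((Subgroup.mem_normalizer_iff.1 hn ⟨g, hgM⟩).2 ((hmemP _).2 hg))
    · have e := congrArg Subtype.val he
      simpa using e.symm
  have hodd : Odd O.ncard := by
    have hsK : (D.S : Subgroup G) ≤ K := le_inf Subgroup.le_normalizer hSM
    let H : Subgroup K := (Subgroup.centralizer ({t} : Set G)).subgroupOf K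
    have hcard : O.ncard = H.index := by
      rw [← Nat.card_coe_set_eq, Subgroup.index_eq_card]
      have hmem : ∀ k : K, (k : G) * t * (k : G)⁻¹ ∈ O := fun k =>
        ⟨(Subgroup.mem_normalizer_iff.1 k.2.1 t).1 D.t_mem, k, k.2.2, rfl⟩
      refine (Nat.card_eq_of_bijective (fun q : K ⧸ H => (⟨_, hmem q.out⟩ : O)) ?_).symm
      constructor
      · intro a b h
        have h' : (a.out : G) * t * (a.out : G)⁻¹ = (b.out : G) * t * (b.out : G)⁻¹ :=
          congrArg Subtype.val h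
        rw [← QuotientGroup.out_eq' a, ← QuotientGroup.out_eq' b, QuotientGroup.eq]
        rw [Subgroup.mem_subgroupOf, Subgroup.mem_centralizer_singleton_iff]
        show ((a.out : G))⁻¹ * (b.out : G) * t = t * (((a.out : G))⁻¹ * (b.out : G))
        calc ((a.out : G))⁻¹ * (b.out : G) * t
            = ((a.out : G))⁻¹ * ((b.out : G) * t * (b.out : G)⁻¹) * (b.out : G) := by group
          _ = t * (((a.out : G))⁻¹ * (b.out : G)) := by rw [← h']; group
      · rintro ⟨u, hu⟩
        obtain ⟨k, hk, rfl⟩ := hfus u hu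
        refine ⟨QuotientGroup.mk ⟨k, hk⟩, Subtype.ext ?_⟩
        obtain ⟨c, hc⟩ := QuotientGroup.mk_out_eq_mul H ⟨k, hk⟩
        show ((QuotientGroup.mk (s := H) ⟨k, hk⟩).out : G) * t *
          ((QuotientGroup.mk (s := H) ⟨k, hk⟩).out : G)⁻¹ = k * t * k⁻¹
        rw [hc, Subgroup.coe_mul]
        have hct : ((c : K) : G) * t = t * ((c : K) : G) :=
          Subgroup.mem_centralizer_singleton_iff.1 c.2
        rw [_root_.mul_inv_rev, mul_assoc k, hct]
        group
    rw [hcard, ← Nat.not_even_iff_odd, even_iff_two_dvd]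
    intro h2
    have hdvd : H.index ∣ ((D.S : Subgroup G).subgroupOf K).index :=
      Subgroup.index_dvd_of_le fun a ha => S_le_centralizer D ha
    exact D.S.not_dvd_index ((h2.trans hdvd).trans (Dvd.intro _ (Subgroup.relIndex_mul_index hsK)))
  -- a conjugate of `t` other than `t` in the Sylow subgroup
  obtain ⟨u, huO, hut⟩ : ∃ u ∈ O, u ≠ t := by
    have huC : m₀ * t * m₀⁻¹ ∈ Subgroup.centralizer ({t} : Set G) :=
      Subgroup.mem_centralizer_singleton_iff.2 hcm.eq.symm
    obtain ⟨c, hc, hcS⟩ := exists_conj_mem_S D (S_le_centralizer D) huC (by rw [H28.orderOf_conj_eq, ht])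
    refine ⟨c * (m₀ * t * m₀⁻¹) * c⁻¹, ⟨hcS, c * m₀, mul_mem (hC hc) hm₀, by group⟩, fun e => hne ?_⟩
    have hct : c * t * c⁻¹ = t :=
      mul_inv_eq_iff_eq_mul.2 (Subgroup.mem_centralizer_singleton_iff.1 hc)
    exact mul_left_cancel (mul_right_cancel (e.trans hct.symm))
  intro w hw hw1
  by_contra hwO
  have hwO' : w ∉ O := fun h => hwO h.2
  have hwt : w ≠ t := fun e => hwO' (e ▸ htO)
  obtain ⟨hu3, hu1, hu2⟩ := htriple u huO.1 (hOT huO).2 hut
  obtain ⟨hw3, -, -⟩ := htriple w hw hw1 hwt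
  have h4 : 4 ≤ O.ncard := by
    have hsub : ((insert t ({u, x * u * x⁻¹, x * (x * u * x⁻¹) * x⁻¹} : Finset G) : Finset G) : Set G) ⊆ O := by
      intro z hz
      simp only [Finset.coe_insert, Finset.coe_singleton, Set.mem_insert_iff, Set.mem_singleton_iff] at hz
      rcases hz with rfl | rfl | rfl | rfl
      exacts [htO, huO, hxO _ huO, hxO _ (hxO _ huO)]
    have := Set.ncard_le_ncard hsub
    rw [Set.ncard_coe_finset, Finset.card_insert_of_notMem (by simp [hut.symm, hu1.symm, hu2.symm]), hu3] at this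
    exact this
  have h7 : O.ncard + 3 ≤ 7 := by
    have hsub : O ∪ (({w, x * w * x⁻¹, x * (x * w * x⁻¹) * x⁻¹} : Finset G) : Set G) ⊆ T := by
      refine Set.union_subset hOT fun z hz => ?_
      simp only [Finset.coe_insert, Finset.coe_singleton, Set.mem_insert_iff, Set.mem_singleton_iff] at hz
      rcases hz with rfl | rfl | rfl
      exacts [⟨hw, hw1⟩, ⟨himg _ hw, by simpa using hw1⟩, ⟨himg _ (himg _ hw), by simpa using hw1⟩]
    have := Set.ncard_le_ncard hsub
    rw [hT7, Set.ncard_union_eq (by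
      rw [Set.disjoint_left]
      intro z hz hz'
      simp only [Finset.coe_insert, Finset.coe_singleton, Set.mem_insert_iff, Set.mem_singleton_iff] at hz'
      rcases hz' with rfl | rfl | rfl
      exacts [hwO' hz, hout _ hwO' hz, hout _ (hout _ hwO') hz]), Set.ncard_coe_finset, hw3] at this
    exact this
  have h4' : O.ncard = 4 := by omega
  rw [h4'] at hodd
  exact absurd hodd (by decide)

/-- With full fusion an overgroup of the centraliser is strongly embedded. -/
theorem isStronglyEmbedded_of_fusion {t : G} (D : Data t F) (ht : orderOf t = 2) {M : Subgroup G}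
    (hM : M ≠ ⊤) (hC : Subgroup.centralizer ({t} : Set G) ≤ M)
    (hfus : ∀ s ∈ (D.S : Subgroup G), s ≠ 1 → ∃ m ∈ M, m * t * m⁻¹ = s) :
    Cfsg.IsStronglyEmbedded M := by
  have htM : t ∈ M := hC (S_le_centralizer D D.t_mem)
  have heven : Even (Nat.card M) := by
    rw [even_iff_two_dvd, ← ht]
    exact Subgroup.orderOf_dvd_natCard M htM
  have hconj : ∀ s ∈ M, orderOf s = 2 → ∃ m ∈ M, m * t * m⁻¹ = s := by
    intro s hs hs2
    obtain ⟨a, ha, haS⟩ := exists_conj_mem_S D ((S_le_centralizer D).trans hC) hs hs2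
    obtain ⟨m, hm, hmt⟩ := hfus _ haS (by
      intro h
      have := H28.orderOf_conj_eq a s
      rw [h, orderOf_one, hs2] at this
      exact absurd this (by norm_num))
    exact ⟨a⁻¹ * m, mul_mem (inv_mem ha) hm, by
      calc a⁻¹ * m * t * (a⁻¹ * m)⁻¹ = a⁻¹ * (m * t * m⁻¹) * a := by group
        _ = s := by rw [hmt]; group⟩
  rw [H28.isStronglyEmbedded_iff_centralizer_fusion hM heven]
  refine ⟨fun s hs hs2 c hc => ?_, fun s hs s' hs' hs2 hs2' _ => ?_⟩
  · obtain ⟨m, hm, rfl⟩ := hconj s hs hs2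
    have h : m⁻¹ * c * m ∈ Subgroup.centralizer ({t} : Set G) := by
      rw [Subgroup.mem_centralizer_singleton_iff] at hc ⊢
      calc m⁻¹ * c * m * t = m⁻¹ * (c * (m * t * m⁻¹)) * m := by group
        _ = m⁻¹ * (m * t * m⁻¹ * c) * m := by rw [hc]
        _ = t * (m⁻¹ * c * m) := by group
    have := mul_mem (mul_mem hm (hC h)) (inv_mem hm)
    simpa [mul_assoc] using this
  · obtain ⟨m, hm, rfl⟩ := hconj s hs hs2
    obtain ⟨m', hm', rfl⟩ := hconj s' hs' hs2'
    exact ⟨m' * m⁻¹, mul_mem hm' (inv_mem hm), by group⟩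

theorem card_S_subgroupOf {t : G} (D : Data t F) {M : Subgroup G} (hS : (D.S : Subgroup G) ≤ M) :
    Nat.card ((D.S : Subgroup G).subgroupOf M) = 8 := by
  rw [Nat.card_congr (Subgroup.subgroupOfEquivOfLe hS).toEquiv, D.S_card]

/-- For `q > 3` the centraliser is not solvable. -/
theorem not_solvable_of_three_lt {t : G} (D : Data t F) (hq : 3 < Fintype.card F) {M : Subgroup G}
    (hC : Subgroup.centralizer ({t} : Set G) ≤ M) : ¬ IsSolvable M := by
  classical
  intro hsol
  haveI : Group.IsSolvable M := hsol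
  let f : PSL(2, F) →* M := D.j.codRestrict M fun z => hC (D.j_mem z)
  have hf : Function.Injective f := fun a b h => D.j_inj (congrArg Subtype.val h)
  haveI : Group.IsSolvable PSL(2, F) := solvable_of_solvable_injective hf
  obtain ⟨a, ha⟩ : ∃ a : F, a ∉ ({0, 1, -1} : Finset F) := by
    by_contra! h
    have := Finset.card_le_card (fun a _ => h a : (Finset.univ : Finset F) ⊆ {0, 1, -1})
    rw [Finset.card_univ] at this
    have := Finset.card_le_three (a := (0 : F)) (b := 1) (c := -1)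
    omega
  simp only [Finset.mem_insert, Finset.mem_singleton, not_or] at ha
  have hsq : a ^ 2 ≠ 1 := fun h => by
    rcases sq_eq_one_iff.1 h with h | h
    exacts [ha.2.1 h, ha.2.2 h]
  have hperf := H1.commutator_PSL_eq_top (ι := Fin 2) (F := F) (Or.inr ⟨a, ha.1, hsq⟩)
  haveI : Nontrivial PSL(2, F) := ⟨⟨D.x, 1, fun h => by
    have := D.x_order; rw [h, orderOf_one] at this; norm_num at this⟩⟩
  exact (Group.IsSolvable.commutator_lt_top_of_nontrivial (G := PSL(2, F))).ne hperf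

end Cfsg.Agent.H23.S1245
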