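import Cfsg.Agent.H23.S1245.ThreeDegree
import Cfsg.Agent.H49.Basic

/-!
# No Janko–Ree configuration over the field with three elements

The transfer into a Sylow 3-subgroup of a group of order 1512 is nontrivial.
-/

set_option autoImplicit false
set_option linter.style.haveILetI false

namespace Cfsg.Agent.H23.S1245.Three

universe u

variable {G : Type u} [Group G] [Finite G] {M : Subgroup G} {t : G}

/-- A subgroup of order 27 centralizes no element fixing a point. -/
theorem Ctx.no_fix (h : Ctx M t) {q g : G} (hq : q ≠ 1) (hg : g * q * g⁻¹ ∈ M) {Q : Subgroup G}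
    (hQ : Nat.card Q = 27) (hQq : ∀ p ∈ Q, p * q = q * p) : False := by
  classical
  set a : G ⧸ M := ((g⁻¹ : G) : G ⧸ M) with ha
  have hqa : q • a = a := (fix_iff q g⁻¹).2 (by rwa [inv_inv])
  have hst : Nat.card (MulAction.stabilizer Q a) ∣ 3 := by
    have h1 : Nat.card (MulAction.stabilizer Q a) ∣ 27 := hQ ▸ Subgroup.card_subgroup_dvd_card _
    have h2 : Nat.card (MulAction.stabilizer Q a) ∣ 168 := by
      let f : MulAction.stabilizer Q a → M := fun x => ⟨g * (x.1 : G) * g⁻¹, by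
        have e : ((x.1 : G)) • a = a := x.2
        have := (fix_iff (x.1 : G) g⁻¹).1 e
        rwa [inv_inv] at this⟩
      let F : MulAction.stabilizer Q a →* M :=
        { toFun := f
          map_one' := Subtype.ext (by simp [f])
          map_mul' := fun x y => Subtype.ext (by simp [f, mul_assoc]) }
      have hF : Function.Injective F := fun x y e => Subtype.ext (Subtype.ext (by
        have := congrArg Subtype.val e
        simpa [F, f] using this))
      exact h.cardM ▸ Subgroup.card_dvd_of_injective F hF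
    exact (show (3 : ℕ) = Nat.gcd 27 168 from rfl) ▸ Nat.dvd_gcd h1 h2
  have horb : MulAction.orbit Q a = Set.univ := by
    refine Set.eq_of_subset_of_ncard_le (Set.subset_univ _) ?_
    rw [Set.ncard_univ, ← Subgroup.index_eq_card, h.degree.1, ← MulAction.index_stabilizer]
    have e := (MulAction.stabilizer Q a).index_mul_card
    rw [hQ] at e
    have hle := Nat.le_of_dvd (by norm_num) hst
    nlinarith
  refine hq (h.core q fun x => ?_)
  obtain ⟨⟨p, hp⟩, hpx⟩ : (x : G ⧸ M) ∈ MulAction.orbit Q a := horb ▸ Set.mem_univ _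
  refine (fix_iff q x).1 ?_
  rw [← hpx]
  show q • (p • a) = p • a
  rw [smul_smul, ← hQq p hp, mul_smul, hqa]

/-- The configuration is impossible. -/
theorem Ctx.false [IsSimpleGroup G] (hna : ¬ IsMulCommutative G) (h : Ctx M t) : False := by
  classical
  haveI : Fact (Nat.Prime 3) := ⟨Nat.prime_three⟩
  haveI : Fact (Nat.Prime 2) := ⟨Nat.prime_two⟩
  obtain ⟨hidx, h37⟩ := h.degree
  have hG : Nat.card G = 3 ^ 3 * 56 := by
    rw [← M.index_mul_card, hidx, h.cardM]; norm_num
  obtain ⟨⟨y, hyC⟩, hy0⟩ := exists_prime_orderOf_dvd_card' 3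
    (G := Subgroup.centralizer ({t} : Set G)) (by rw [h.cardC]; norm_num)
  have hy : orderOf y = 3 := by rw [← hy0, ← Subgroup.orderOf_coe]
  have hyM : y ∈ M := h.cent_le hyC
  have hy1 : y ≠ 1 := fun e => by simp [e] at hy
  have hy3 : y ^ 3 = 1 := hy ▸ pow_orderOf_eq_one y
  have hyt : y * t = t * y := Subgroup.mem_centralizer_singleton_iff.1 hyC
  have hnoy : ∀ Q : Subgroup G, Nat.card Q = 27 → ¬ ∀ p ∈ Q, p * y = y * p := fun Q hQ hc =>
    h.no_fix hy1 (g := 1) (by simpa using hyM) hQ hc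
  have hP27 : ∀ P : Sylow 3 G, Nat.card P = 27 := fun P => sylow_card_eq P hG (by norm_num)
  -- central elements
  let Zc : Sylow 3 G → G → Prop := fun P c => c ∈ (P : Subgroup G) ∧ ∀ p ∈ (P : Subgroup G), p * c = c * p
  have hcenter : ∀ P : Sylow 3 G, y ∈ (P : Subgroup G) →
      Nat.card (Subgroup.center (P : Subgroup G)) = 3 := by
    intro P hyP
    have hne : ¬ ∀ a b : (P : Subgroup G), a * b = b * a := fun hc =>
      hnoy _ (hP27 P) fun p hp => congrArg Subtype.val (hc ⟨p, hp⟩ ⟨y, hyP⟩)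
    have h1 : Nat.card (Subgroup.center (P : Subgroup G)) ∣ 27 := hP27 P ▸ Subgroup.card_subgroup_dvd_card _
    haveI : Nontrivial (P : Subgroup G) := Finite.one_lt_card_iff_nontrivial.1 (by
      have : Nat.card (P : Subgroup G) = 27 := hP27 P
      omega)
    have h2 : 1 < Nat.card (Subgroup.center (P : Subgroup G)) :=
      Finite.one_lt_card_iff_nontrivial.2 P.2.center_nontrivial
    have h3 : Nat.card (Subgroup.center (P : Subgroup G)) ≠ 9 ∧
        Nat.card (Subgroup.center (P : Subgroup G)) ≠ 27 := by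
      refine ⟨fun e => hne ?_, fun e => hne ?_⟩
      · haveI : IsCyclic ((P : Subgroup G) ⧸ Subgroup.center (P : Subgroup G)) := by
          refine isCyclic_of_prime_card (p := 3) ?_
          rw [← Subgroup.index_eq_card]
          have := (Subgroup.center (P : Subgroup G)).index_mul_card
          rw [e, show Nat.card (P : Subgroup G) = 27 from hP27 P] at this
          omega
        exact commutative_of_cyclic_center_quotient
          (QuotientGroup.mk' (Subgroup.center (P : Subgroup G))) (by rw [QuotientGroup.ker_mk'])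
      · have := Subgroup.eq_top_of_card_eq (Subgroup.center (P : Subgroup G)) (by rw [e, ← hP27 P])
        intro a b
        exact (Subgroup.mem_center_iff.1 (this ▸ Subgroup.mem_top b) a)
    obtain ⟨i, hi, hi'⟩ := (Nat.dvd_prime_pow Nat.prime_three).1 (show _ ∣ 3 ^ 3 from h1)
    interval_cases i <;> omega
  have hZexists : ∀ P : Sylow 3 G, y ∈ (P : Subgroup G) → ∃ c, Zc P c ∧ orderOf c = 3 := by
    intro P hyP
    obtain ⟨⟨⟨c, hcP⟩, hcZ⟩, hc⟩ := exists_prime_orderOf_dvd_card' 3
      (G := Subgroup.center (P : Subgroup G)) (dvd_of_eq (hcenter P hyP).symm)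
    refine ⟨c, ⟨hcP, fun p hp => congrArg Subtype.val (Subgroup.mem_center_iff.1 hcZ ⟨p, hp⟩)⟩, ?_⟩
    rw [← hc, ← Subgroup.orderOf_coe, ← Subgroup.orderOf_coe]
  have hyZ : ∀ P : Sylow 3 G, y ∈ (P : Subgroup G) → ¬ ∀ p ∈ (P : Subgroup G), p * y = y * p :=
    fun P _ => hnoy _ (hP27 P)
  have hA9 : ∀ P : Sylow 3 G, y ∈ (P : Subgroup G) →
      Nat.card ↥((P : Subgroup G) ⊓ Subgroup.centralizer ({y} : Set G)) = 9 := by
    intro P hyP
    obtain ⟨c, ⟨hcP, hcZ⟩, hc⟩ := hZexists P hyP
    set A := (P : Subgroup G) ⊓ Subgroup.centralizer ({y} : Set G) with hA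
    have h1 : Nat.card A ∣ 27 := hP27 P ▸ Subgroup.card_dvd_of_le inf_le_left
    have hyA : y ∈ A := ⟨hyP, Subgroup.mem_centralizer_singleton_iff.2 rfl⟩
    have hcA : c ∈ A := ⟨hcP, Subgroup.mem_centralizer_singleton_iff.2 (hcZ y hyP).symm⟩
    have h2 : 3 < Nat.card A := by
      by_contra hle
      have := Subgroup.eq_of_le_of_card_ge (Subgroup.zpowers_le.2 hcA)
        (by rw [Nat.card_zpowers, hc]; omega)
      rw [← this, Subgroup.mem_zpowers_iff] at hyA
      obtain ⟨k, rfl⟩ := hyA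
      exact hyZ P hyP fun p hp => ((show Commute p c from hcZ p hp).zpow_right k).eq
    have h3 : Nat.card A ≠ 27 := fun e => hnoy A e fun p hp => Subgroup.mem_centralizer_singleton_iff.1 hp.2
    obtain ⟨i, hi, hi'⟩ := (Nat.dvd_prime_pow Nat.prime_three).1 (show _ ∣ 3 ^ 3 from h1)
    interval_cases i <;> omega
  obtain ⟨P, hP⟩ := (IsPGroup.of_card (p := 3) (n := 1) (G := Subgroup.zpowers y)
    (by rw [Nat.card_zpowers, hy, pow_one])).exists_le_sylow
  have hyP : y ∈ (P : Subgroup G) := hP (Subgroup.mem_zpowers y)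
  obtain ⟨c, ⟨hcP, hcZ⟩, hc⟩ := hZexists P hyP
  have hc1 : c ≠ 1 := fun e => by simp [e] at hc
  set A := (P : Subgroup G) ⊓ Subgroup.centralizer ({y} : Set G) with hA
  have hAcard : Nat.card A = 9 := hA9 P hyP
  have hcA : c ∈ A := ⟨hcP, Subgroup.mem_centralizer_singleton_iff.2 (hcZ y hyP).symm⟩
  have hyA : y ∈ A := ⟨hyP, Subgroup.mem_centralizer_singleton_iff.2 rfl⟩
  -- the centralizer of `y`
  set Cy := Subgroup.centralizer ({y} : Set G) with hCy
  have hCy : Nat.card Cy = 9 ∨ Nat.card Cy = 18 := by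
    have h9 : 9 ∣ Nat.card Cy := hAcard ▸ Subgroup.card_dvd_of_le inf_le_right
    have h7 : ¬ 7 ∣ Nat.card Cy := by
      intro h7
      haveI : Fact (Nat.Prime 7) := ⟨by norm_num⟩
      obtain ⟨d, hd⟩ := exists_prime_orderOf_dvd_card' 7 h7
      exact h37 d y (by rwa [Subgroup.orderOf_coe]) hy (Subgroup.mem_centralizer_singleton_iff.1 d.2)
    have h27 : ¬ 3 ^ 3 ∣ Nat.card Cy := by
      intro h27
      obtain ⟨R, hR⟩ := Sylow.exists_subgroup_card_pow_prime (G := Cy) 3 h27
      refine hnoy (R.map Cy.subtype) ?_ ?_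
      · rw [← Nat.card_congr (Subgroup.equivMapOfInjective R _ Cy.subtype_injective).toEquiv, hR]; rfl
      · rintro _ ⟨p, -, rfl⟩
        exact Subgroup.mem_centralizer_singleton_iff.1 p.2
    have h4 : ¬ 2 ^ 2 ∣ Nat.card Cy := by
      intro h4
      obtain ⟨R, hR⟩ := Sylow.exists_subgroup_card_pow_prime (G := Cy) 2 h4
      have hR2 : IsPGroup 2 (R.map Cy.subtype : Subgroup G) := (IsPGroup.of_card hR).map _
      have hsq := h.two_sq _ hR2
      obtain ⟨u, hu, hu1⟩ : ∃ u ∈ R, u ≠ 1 := by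
        apply (Subgroup.nontrivial_iff_exists_ne_one R).1
        exact Finite.one_lt_card_iff_nontrivial.1 (by rw [hR]; norm_num)
      obtain ⟨w, hw, hw1, hwu⟩ : ∃ w ∈ R, w ≠ 1 ∧ w ≠ u := by
        by_contra! hne
        have h1 : (R : Set Cy).ncard ≤ ({1, u} : Set Cy).ncard := Set.ncard_le_ncard fun w hw => by
          by_cases hw1 : w = 1
          · exact Or.inl hw1
          · exact Or.inr (hne w hw hw1)
        rw [← Nat.card_coe_set_eq] at h1
        have h2 : ({1, u} : Set Cy).ncard ≤ 2 := le_trans (Set.ncard_insert_le _ _) (by simp)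
        have : Nat.card (R : Set Cy) = 2 ^ 2 := hR
        omega
      have hru : (u : G) ∈ R.map Cy.subtype := ⟨u, hu, rfl⟩
      have hrw : (w : G) ∈ R.map Cy.subtype := ⟨w, hw, rfl⟩
      have e := hsq _ (mul_mem hru hrw)
      have hcomm : (u : G) * w = w * u := by
        calc (u : G) * w = (u : G) * ((u * w) * (u * w)) * w := by rw [e, mul_one]
          _ = ((u : G) * u) * w * u * ((w : G) * w) := by group
          _ = w * u := by rw [hsq _ hru, hsq _ hrw, one_mul, mul_one]
      exact hwu (Subtype.ext (h.noFour y u w hy (orderOf_two (hsq _ hru) (by simpa using hu1))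
        (orderOf_two (hsq _ hrw) (by simpa using hw1)) hcomm
        (Subgroup.mem_centralizer_singleton_iff.1 u.2).symm
        (Subgroup.mem_centralizer_singleton_iff.1 w.2).symm).symm)
    obtain ⟨k, hk⟩ := h9
    have hk' : k ∣ 24 := by
      have hd : Nat.card Cy ∣ 216 * 7 := by
        rw [show 216 * 7 = Nat.card G by rw [hG]; norm_num]
        exact Subgroup.card_subgroup_dvd_card _
      have hd' := (Nat.Coprime.dvd_of_dvd_mul_right
        (Nat.coprime_comm.1 ((Nat.Prime.coprime_iff_not_dvd (by norm_num)).2 h7)) hd)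
      rw [hk] at hd'
      exact (Nat.mul_dvd_mul_iff_left (by norm_num : 0 < 9)).1 (by simpa using hd')
    have h3k : ¬ 3 ∣ k := fun ⟨i, hi⟩ => h27 ⟨i, by rw [hk, hi]; ring⟩
    have h4k : ¬ 4 ∣ k := fun ⟨i, hi⟩ => h4 ⟨9 * i, by rw [hk, hi]; ring⟩
    have := Nat.le_of_dvd (by norm_num) hk'
    interval_cases k <;> omega
  have hsub9 : ∀ B : Subgroup G, B ≤ Cy → Nat.card B = 9 → B ≤ A := by
    intro B hB hB9 b hb
    let A' := A.subgroupOf Cy
    have hA' : Nat.card A' = 9 := by
      rw [Nat.card_congr (Subgroup.subgroupOfEquivOfLe (inf_le_right : A ≤ Cy)).toEquiv, hAcard]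
    have e := A'.index_mul_card
    rw [hA'] at e
    have hi : A'.index = 1 ∨ A'.index = 2 := by rcases hCy with h | h <;> rw [h] at e <;> omega
    have hb2 : b ^ 2 ∈ A := by
      rcases hi with hi | hi
      · rw [Subgroup.index_eq_one] at hi
        exact pow_mem (show (⟨b, hB hb⟩ : Cy) ∈ A' from hi ▸ Subgroup.mem_top _) 2
      · haveI := Subgroup.normal_of_index_eq_two hi
        have := A'.pow_index_mem ⟨b, hB hb⟩
        rwa [hi] at this
    have hb9 : b ^ 9 = 1 := orderOf_dvd_iff_pow_eq_one.1 (hB9 ▸ Subgroup.orderOf_dvd_natCard B hb)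
    have := pow_mem hb2 5
    rwa [← pow_mul, show 2 * 5 = 9 + 1 from rfl, pow_succ, hb9, one_mul] at this
  -- a conjugate of `y` by a translation along the centre
  obtain ⟨q, hqP, z, hz1, hzc, hzq⟩ : ∃ q ∈ (P : Subgroup G), ∃ z, z ≠ 1 ∧
      z ∈ Subgroup.zpowers c ∧ q * y * q⁻¹ = z * y := by
    obtain ⟨q, hq, hne⟩ : ∃ q ∈ (P : Subgroup G), q * y ≠ y * q := by
      by_contra! hne
      exact hyZ P hyP hne
    refine ⟨q, hq, q * y * q⁻¹ * y⁻¹, fun e => hne ?_, ?_, by group⟩
    · rw [mul_inv_eq_one] at e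
      exact mul_inv_eq_iff_eq_mul.1 e
    · have hQ2 : Nat.card ((P : Subgroup G) ⧸ Subgroup.center (P : Subgroup G)) = 3 ^ 2 := by
        have := (Subgroup.center (P : Subgroup G)).index_mul_card
        rw [hcenter P hyP, show Nat.card (P : Subgroup G) = 27 from hP27 P] at this
        rw [← Subgroup.index_eq_card]
        omega
      have hc' := IsPGroup.commutative_of_card_eq_prime_sq hQ2
      let q' : (P : Subgroup G) := ⟨q, hq⟩
      let y' : (P : Subgroup G) := ⟨y, hyP⟩
      have hw : q' * y' * q'⁻¹ * y'⁻¹ ∈ Subgroup.center (P : Subgroup G) := by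
        rw [← QuotientGroup.eq_one_iff]
        show QuotientGroup.mk' (Subgroup.center (P : Subgroup G)) (q' * y' * q'⁻¹ * y'⁻¹) = 1
        rw [map_mul, map_mul, map_mul, map_inv, map_inv, hc' (QuotientGroup.mk' _ q') (QuotientGroup.mk' _ y'),
          mul_inv_cancel_right, mul_inv_cancel]
      let Z := (Subgroup.center (P : Subgroup G)).map (P : Subgroup G).subtype
      have hZc : Z = Subgroup.zpowers c := by
        refine (Subgroup.eq_of_le_of_card_ge ?_ ?_).symm
        · rw [Subgroup.zpowers_le]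
          exact ⟨⟨c, hcP⟩, Subgroup.mem_center_iff.2 fun p => Subtype.ext (hcZ p p.2), rfl⟩
        · rw [← Nat.card_congr (Subgroup.equivMapOfInjective _ _ (Subgroup.subtype_injective _)).toEquiv,
            Nat.card_zpowers, hc, hcenter P hyP]
      rw [← hZc]
      exact ⟨_, hw, rfl⟩
  have hzP : ∀ p ∈ (P : Subgroup G), Commute p z := fun p hp => by
    obtain ⟨i, rfl⟩ := Subgroup.mem_zpowers_iff.1 hzc
    exact (show Commute p c from hcZ p hp).zpow_right i
  have hconjy : ∀ m : ℕ, q ^ m * y * (q ^ m)⁻¹ = z ^ m * y := by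
    intro m
    induction m with
    | zero => simp
    | succ m ih =>
      calc q ^ (m + 1) * y * (q ^ (m + 1))⁻¹ = q * (q ^ m * y * (q ^ m)⁻¹) * q⁻¹ := by
            rw [pow_succ']; group
        _ = (q * z ^ m) * y * q⁻¹ := by rw [ih]; group
        _ = z ^ m * (q * y * q⁻¹) := by rw [((hzP q hqP).pow_right m).eq]; group
        _ = z ^ (m + 1) * y := by rw [hzq, ← mul_assoc, ← pow_succ]
  -- elements of `A` outside the centre are centralized by no subgroup of order 27
  have hAelem : ∀ a ∈ A, a ∉ Subgroup.zpowers c → ∀ Q : Subgroup G, Nat.card Q = 27 →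
      ¬ ∀ p ∈ Q, p * a = a * p := by
    intro a ha hac Q hQ hcom
    have hzo : orderOf z = 3 := by
      refine orderOf_eq_prime ?_ hz1
      obtain ⟨i, rfl⟩ := Subgroup.mem_zpowers_iff.1 hzc
      rw [← zpow_natCast, ← zpow_mul, mul_comm, zpow_mul, zpow_natCast, ← hc, pow_orderOf_eq_one, one_zpow]
    have hzc' : Subgroup.zpowers z = Subgroup.zpowers c :=
      Subgroup.eq_of_le_of_card_ge (Subgroup.zpowers_le.2 hzc)
        (by rw [Nat.card_zpowers, Nat.card_zpowers, hc, hzo])
    have hzA : z ∈ A := Subgroup.zpowers_le.2 hcA hzc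
    let e : Fin 3 × Fin 3 → A := fun x =>
      ⟨y ^ (x.1 : ℕ) * z ^ (x.2 : ℕ), mul_mem (pow_mem hyA _) (pow_mem hzA _)⟩
    have he : Function.Bijective e := by
      rw [Nat.bijective_iff_injective_and_card]
      refine ⟨?_, by rw [Nat.card_prod, Nat.card_fin, hAcard]⟩
      rintro ⟨i, j⟩ ⟨i', j'⟩ hij
      have h' : y ^ (i : ℕ) * z ^ (j : ℕ) = y ^ (i' : ℕ) * z ^ (j' : ℕ) := congrArg Subtype.val hij
      have hmem : (y ^ (i' : ℕ))⁻¹ * y ^ (i : ℕ) ∈ Subgroup.zpowers z := by
        rw [show (y ^ (i' : ℕ))⁻¹ * y ^ (i : ℕ) = z ^ (j' : ℕ) * (z ^ (j : ℕ))⁻¹ by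
          rw [eq_mul_inv_iff_mul_eq, mul_assoc, h', inv_mul_cancel_left]]
        exact mul_mem (pow_mem (Subgroup.mem_zpowers z) _) (inv_mem (pow_mem (Subgroup.mem_zpowers z) _))
      have hii : i = i' := by
        by_contra hne
        set w := (y ^ (i' : ℕ))⁻¹ * y ^ (i : ℕ) with hw
        have hw1 : w ≠ 1 := fun h1 => hne (Fin.ext (pow_injOn_Iio_orderOf (x := y)
          (by rw [Set.mem_Iio, hy]; exact i.2) (by rw [Set.mem_Iio, hy]; exact i'.2)
          (inv_mul_eq_one.1 h1).symm))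
        have hwy : w ∈ Subgroup.zpowers y :=
          mul_mem (inv_mem (pow_mem (Subgroup.mem_zpowers y) _)) (pow_mem (Subgroup.mem_zpowers y) _)
        have hwo : orderOf w = 3 := orderOf_eq_prime
          (by obtain ⟨k, hk⟩ := Subgroup.mem_zpowers_iff.1 hwy
              rw [← hk, ← zpow_natCast, ← zpow_mul, mul_comm, zpow_mul, zpow_natCast, hy3, one_zpow]) hw1
        have heq := Subgroup.eq_of_le_of_card_ge (Subgroup.zpowers_le.2 hwy)
          (by rw [Nat.card_zpowers, Nat.card_zpowers, hy, hwo])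
        have hyz : y ∈ Subgroup.zpowers z :=
          Subgroup.zpowers_le.2 hmem (heq ▸ Subgroup.mem_zpowers y)
        obtain ⟨k, hk⟩ := Subgroup.mem_zpowers_iff.1 hyz
        exact hyZ P hyP fun p hp => hk ▸ ((hzP p hp).zpow_right k).eq
      subst hii
      have := pow_injOn_Iio_orderOf (x := z) (by rw [Set.mem_Iio, hzo]; exact j.2)
        (by rw [Set.mem_Iio, hzo]; exact j'.2) (mul_left_cancel h')
      rw [Fin.ext this]
    obtain ⟨⟨i, j⟩, hij⟩ := he.2 ⟨a, ha⟩
    have hij' : y ^ (i : ℕ) * z ^ (j : ℕ) = a := congrArg Subtype.val hij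
    have hi0 : (i : ℕ) ≠ 0 := fun h0 => hac (by
      rw [← hij', h0, pow_zero, one_mul, ← hzc']; exact pow_mem (Subgroup.mem_zpowers z) _)
    set m := (i : ℕ) * (j : ℕ) with hm
    have hconj : q ^ m * y ^ (i : ℕ) * (q ^ m)⁻¹ = a := by
      have hyz : Commute y z := hzP y hyP
      rw [← conj_pow, hconjy, (hyz.symm.pow_left m).mul_pow, ← hij', ← pow_mul,
        (hyz.pow_pow (i : ℕ) (j : ℕ)).eq]
      congr 1
      rw [pow_eq_pow_iff_modEq, hzo, hm]
      have h1 := i.2
      have h2 := j.2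
      unfold Nat.ModEq
      interval_cases h : (i : ℕ) <;> omega
    have hg : (q ^ m)⁻¹ * a * ((q ^ m)⁻¹)⁻¹ ∈ M := by
      rw [inv_inv, ← hconj]
      simpa [mul_assoc] using pow_mem hyM (i : ℕ)
    refine h.no_fix ?_ hg hQ hcom
    rintro rfl
    exact hac (one_mem _)
  -- the centralizer of `c`
  have hCc : ∀ g : G, g * c = c * g → g ∈ (P : Subgroup G) := by
    set Cc := Subgroup.centralizer ({c} : Set G) with hCc
    have hPC : (P : Subgroup G) ≤ Cc := fun p hp => Subgroup.mem_centralizer_singleton_iff.2 (hcZ p hp)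
    have hcard : Nat.card Cc = 27 := by
      obtain ⟨k, hk⟩ := hP27 P ▸ Subgroup.card_dvd_of_le hPC
      have h2 : ¬ 2 ∣ Nat.card Cc := by
        intro h2
        obtain ⟨s, hs⟩ := exists_prime_orderOf_dvd_card' 2 h2
        obtain ⟨g, hg⟩ := h.conj_t s (by rwa [Subgroup.orderOf_coe])
        refine h.no_fix hc1 (g := g) (h.cent_le ?_) (hP27 P) hcZ
        rw [Subgroup.mem_centralizer_singleton_iff, ← hg]
        show MulAut.conj g c * MulAut.conj g (s : G) = MulAut.conj g (s : G) * MulAut.conj g c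
        rw [← map_mul, ← map_mul, Subgroup.mem_centralizer_singleton_iff.1 s.2]
      have h7 : ¬ 7 ∣ Nat.card Cc := by
        intro h7
        haveI : Fact (Nat.Prime 7) := ⟨by norm_num⟩
        obtain ⟨d, hd⟩ := exists_prime_orderOf_dvd_card' 7 h7
        exact h37 d c (by rwa [Subgroup.orderOf_coe]) hc (Subgroup.mem_centralizer_singleton_iff.1 d.2)
      have hk' : k ∣ 56 := by
        refine (Nat.mul_dvd_mul_iff_left (by norm_num : 0 < 27)).1 ?_
        rw [← hk, show 27 * 56 = Nat.card G by rw [hG]; norm_num]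
        exact Subgroup.card_subgroup_dvd_card _
      have hk2 : ¬ 2 ∣ k := fun h' => h2 (hk ▸ h'.mul_left 27)
      have hk7 : ¬ 7 ∣ k := fun h' => h7 (hk ▸ h'.mul_left 27)
      have := Nat.le_of_dvd (by norm_num) hk'
      interval_cases k <;> omega
    have := Subgroup.eq_of_le_of_card_ge hPC (le_of_eq (hcard.trans (hP27 P).symm))
    intro g hg
    exact this ▸ Subgroup.mem_centralizer_singleton_iff.2 hg
  -- uniqueness
  have huniq : ∀ P' : Sylow 3 G, y ∈ (P' : Subgroup G) → P' = P := by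
    intro P' hyP'
    obtain ⟨c', ⟨hc'P, hc'Z⟩, hc'⟩ := hZexists P' hyP'
    have hc'A : c' ∈ A := hsub9 _ inf_le_right (hA9 P' hyP')
      ⟨hc'P, Subgroup.mem_centralizer_singleton_iff.2 (hc'Z y hyP').symm⟩
    by_cases hcc : c' ∈ Subgroup.zpowers c
    · have heq := Subgroup.eq_of_le_of_card_ge (Subgroup.zpowers_le.2 hcc)
        (by rw [Nat.card_zpowers, Nat.card_zpowers, hc, hc'])
      obtain ⟨i, hi⟩ := Subgroup.mem_zpowers_iff.1 (heq ▸ Subgroup.mem_zpowers c : c ∈ Subgroup.zpowers c')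
      refine Sylow.ext (Subgroup.eq_of_le_of_card_ge (fun p hp => hCc p ?_) (le_of_eq ?_))
      · exact hi ▸ ((show Commute p c' from hc'Z p hp).zpow_right i).eq
      · exact (hP27 P).trans (hP27 P').symm
    · exact absurd hc'Z (hAelem c' hc'A hcc _ (hP27 P'))
  have hnormP : ∀ g : G, y ∈ ((g • P : Sylow 3 G) : Subgroup G) →
      g ∈ Subgroup.normalizer ((P : Subgroup G) : Set G) := fun g hg =>
    Sylow.smul_eq_iff_mem_normalizer.1 (huniq _ hg)
  have hcconj : ∀ g ∈ Subgroup.normalizer ((P : Subgroup G) : Set G),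
      g * c * g⁻¹ = c ∨ g * c * g⁻¹ = c⁻¹ := by
    intro g hg
    have hmem : ∀ p, p ∈ (P : Subgroup G) → g * p * g⁻¹ ∈ (P : Subgroup G) := fun p hp =>
      (Subgroup.mem_normalizer_iff.1 hg p).1 hp
    have hpre : ∀ p ∈ (P : Subgroup G), g⁻¹ * p * g ∈ (P : Subgroup G) := fun p hp =>
      (Subgroup.mem_normalizer_iff''.1 hg p).1 hp
    have hcen : ∀ p ∈ (P : Subgroup G), p * (g * c * g⁻¹) = g * c * g⁻¹ * p := fun p hp => by
      have := hcZ _ (hpre p hp)
      calc p * (g * c * g⁻¹) = g * ((g⁻¹ * p * g) * c) * g⁻¹ := by group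
        _ = g * c * g⁻¹ * p := by rw [this]; group
    have hzc : g * c * g⁻¹ ∈ Subgroup.zpowers c := by
      by_contra hn
      refine hAelem _ ?_ hn _ (hP27 P) hcen
      exact ⟨hmem c hcP, Subgroup.mem_centralizer_singleton_iff.2 (hcen y hyP).symm⟩
    obtain ⟨k, hk⟩ := Subgroup.mem_zpowers_iff.1 hzc
    rw [← zpow_mod_orderOf, hc] at hk
    have h3 := Int.emod_lt_of_pos k (show (0 : ℤ) < 3 by norm_num)
    have h0 := Int.emod_nonneg k (show (3 : ℤ) ≠ 0 by norm_num)
    norm_cast at hk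
    interval_cases hk' : k % 3
    · rw [zpow_zero, eq_comm, mul_inv_eq_one, mul_eq_left] at hk
      exact absurd hk hc1
    · exact Or.inl (by simpa using hk.symm)
    · right
      rw [← hk]
      refine eq_inv_of_mul_eq_one_left ?_
      rw [zpow_ofNat, ← pow_succ, show c ^ (2 + 1) = c ^ orderOf c by rw [hc], pow_orderOf_eq_one]
  have htN : t ∈ Subgroup.normalizer ((P : Subgroup G) : Set G) := hnormP t ⟨y, hyP, by
    show t * y * t⁻¹ = y
    rw [← hyt, mul_inv_cancel_right]⟩
  have htc : t * c * t⁻¹ = c⁻¹ := (hcconj t htN).resolve_left fun e => by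
    have htP := hCc t (mul_inv_eq_iff_eq_mul.1 e)
    have := h.t_order ▸ Subgroup.orderOf_dvd_natCard (P : Subgroup G) htP
    rw [show Nat.card (P : Subgroup G) = 27 from hP27 P] at this
    norm_num at this
  -- the transfer
  set Z := Subgroup.center (P : Subgroup G) with hZdef
  have hQ2 : Nat.card ((P : Subgroup G) ⧸ Z) = 3 ^ 2 := by
    have := Z.index_mul_card
    rw [hZdef, hcenter P hyP, show Nat.card (P : Subgroup G) = 27 from hP27 P] at this
    rw [← Subgroup.index_eq_card, hZdef]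
    omega
  letI : CommGroup ((P : Subgroup G) ⧸ Z) := IsPGroup.commGroupOfCardEqPrimeSq hQ2
  let ψ : (P : Subgroup G) →* (P : Subgroup G) ⧸ Z := QuotientGroup.mk' Z
  have hψ : ∀ (k : ℕ) (g : G) (hm : g⁻¹ * y ^ k * g ∈ (P : Subgroup G)),
      ψ ⟨_, hm⟩ = ψ ⟨y, hyP⟩ ^ k := by
    intro k g hm
    rw [← map_pow]
    obtain ⟨r, hr⟩ : ∃ r, r = k % 3 := ⟨_, rfl⟩
    have hyk : y ^ k = y ^ r := by rw [hr, ← hy, pow_mod_orderOf]
    by_cases hr0 : r = 0
    · congr 1
      apply Subtype.ext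
      show g⁻¹ * y ^ k * g = y ^ k
      rw [hyk, hr0, pow_zero, mul_one, inv_mul_cancel]
    have hgy : g⁻¹ * y * g ∈ (P : Subgroup G) := by
      have h1 := pow_mem hm r
      have h2 : (g⁻¹ * y ^ k * g) ^ r = g⁻¹ * y ^ (k * r) * g := by
        have := (conj_pow (i := r) (a := g⁻¹) (b := y ^ k))
        rw [inv_inv] at this
        rw [this, pow_mul]
      rw [h2, show y ^ (k * r) = y by
        rw [← pow_mod_orderOf, hy]
        have : r < 3 := hr ▸ Nat.mod_lt _ (by norm_num)
        interval_cases r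
        · exact absurd rfl hr0
        · rw [show k * 1 % 3 = 1 by omega, pow_one]
        · rw [show k * 2 % 3 = 1 by omega, pow_one]] at h1
      exact h1
    have hgN : g ∈ Subgroup.normalizer ((P : Subgroup G) : Set G) :=
      hnormP g ⟨_, hgy, by simp [mul_assoc]⟩
    -- `g` or `g t` lies in `P`
    obtain ⟨p, hp, e, hgp_e, hgp, hey⟩ : ∃ p ∈ (P : Subgroup G), ∃ e ∈ Subgroup.normalizer
        ((P : Subgroup G) : Set G), g = p * e ∧ e * y = y * e := by
      rcases hcconj g hgN with h1 | h1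
      · exact ⟨g, hCc g (mul_inv_eq_iff_eq_mul.1 h1), 1, one_mem _, (mul_one g).symm, by simp⟩
      · refine ⟨g * t, hCc _ (mul_inv_eq_iff_eq_mul.1 ?_), t⁻¹, inv_mem htN, by group,
          ((show Commute y t from hyt).inv_right).symm.eq⟩
        calc g * t * c * (g * t)⁻¹ = g * (t * c * t⁻¹) * g⁻¹ := by group
          _ = (g * c * g⁻¹)⁻¹ := by rw [htc]; group
          _ = c := by rw [h1, inv_inv]
    let y' : (P : Subgroup G) := ⟨y, hyP⟩
    let p' : (P : Subgroup G) := ⟨p, hp⟩
    let w : (P : Subgroup G) := (y' ^ k)⁻¹ * (p'⁻¹ * y' ^ k * p')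
    have hw : w ∈ Z := by
      rw [← QuotientGroup.eq_one_iff]
      show ψ w = 1
      simp only [w, map_mul, map_inv, map_pow]
      rw [mul_comm (ψ p')⁻¹, inv_mul_cancel_right, inv_mul_cancel]
    have hey' : Commute e (y ^ k) := (show Commute e y from hey).pow_right k
    have hgy' : g⁻¹ * y ^ k * g = y ^ k * (e⁻¹ * (w : G) * e) := by
      rw [hgp]
      simp only [w, y', p', Subgroup.coe_mul, Subgroup.coe_inv, SubgroupClass.coe_pow]
      calc (p * e)⁻¹ * y ^ k * (p * e) = e⁻¹ * (p⁻¹ * y ^ k * p) * e := by group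
        _ = e⁻¹ * y ^ k * ((y ^ k)⁻¹ * (p⁻¹ * y ^ k * p)) * e := by group
        _ = y ^ k * (e⁻¹ * ((y ^ k)⁻¹ * (p⁻¹ * y ^ k * p)) * e) := by rw [hey'.inv_left.eq]; group
    have hem : e⁻¹ * (w : G) * e ∈ (P : Subgroup G) :=
      (Subgroup.mem_normalizer_iff''.1 hgp_e w).1 w.2
    have hez : (⟨_, hem⟩ : (P : Subgroup G)) ∈ Z := by
      rw [hZdef, Subgroup.mem_center_iff]
      intro r'
      apply Subtype.ext
      show (r' : G) * (e⁻¹ * w * e) = e⁻¹ * w * e * r'
      have hr' : e * (r' : G) * e⁻¹ ∈ (P : Subgroup G) := (Subgroup.mem_normalizer_iff.1 hgp_e r').1 r'.2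
      have hc' : e * (r' : G) * e⁻¹ * w = w * (e * (r' : G) * e⁻¹) :=
        congrArg Subtype.val (Subgroup.mem_center_iff.1 hw ⟨_, hr'⟩)
      calc (r' : G) * (e⁻¹ * w * e) = e⁻¹ * (e * (r' : G) * e⁻¹ * w) * e := by group
        _ = e⁻¹ * w * e * r' := by rw [hc']; group
    calc ψ ⟨_, hm⟩ = ψ (y' ^ k * ⟨_, hem⟩) := congrArg ψ (Subtype.ext hgy')
      _ = ψ (y' ^ k) := by
          rw [map_mul, show ψ ⟨_, hem⟩ = 1 from (QuotientGroup.eq_one_iff _).2 hez, mul_one]
  have htr := Cfsg.Agent.H49.transfer_eq_pow_of_fusion ψ ⟨y, hyP⟩ (fun k g hm => hψ k g hm)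
  have hone : MonoidHom.transfer ψ y = 1 := by
    rcases Subgroup.Normal.eq_bot_or_eq_top
      (inferInstance : (MonoidHom.transfer ψ).ker.Normal) with hk | hk
    · exact absurd ⟨⟨fun a b => (MonoidHom.ker_eq_bot_iff _).1 hk (by
        rw [map_mul, map_mul, mul_comm])⟩⟩ hna
    · exact MonoidHom.mem_ker.1 (hk ▸ Subgroup.mem_top y)
  rw [hone] at htr
  have hi56 : (P : Subgroup G).index = 56 := by
    have := (P : Subgroup G).index_mul_card
    rw [show Nat.card (P : Subgroup G) = 27 from hP27 P, hG] at this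
    omega
  rw [hi56, ← map_pow] at htr
  have hmem := (QuotientGroup.eq_one_iff _).1 htr.symm
  refine hyZ P hyP fun p hp => ?_
  have h2 : p * y ^ 56 = y ^ 56 * p := congrArg Subtype.val (Subgroup.mem_center_iff.1 hmem ⟨p, hp⟩)
  have h56 : (y ^ 56) ^ 2 = y := by
    rw [← pow_mul, ← pow_mod_orderOf, hy]
    norm_num
  exact h56 ▸ ((show Commute p (y ^ 56) from h2).pow_right 2).eq

end Cfsg.Agent.H23.S1245.Three

namespace Cfsg.Agent.H23.S1245

universe u

/-- No Janko–Ree configuration over the field with three elements in a simple group. -/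
theorem false_of_three {G : Type u} [Group G] [Finite G] [IsSimpleGroup G]
    (hna : ¬ IsMulCommutative G) {F : Type} [Field F] [Fintype F] (hq : Fintype.card F = 3)
    {t : G} (ht : orderOf t = 2) (D : Cfsg.Agent.H77.JankoRee.Data t F) (M : Subgroup G)
    (hM : Cfsg.IsStronglyEmbedded M) (hsol : Group.IsSolvable M)
    (hC : Subgroup.centralizer ({t} : Set G) ≤ M)
    (hfus : ∀ s ∈ (D.S : Subgroup G), s ≠ 1 → ∃ m ∈ M, m * t * m⁻¹ = s) : False :=
  (Three.ctx hq ht D hM hsol hC hfus).false hna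

end Cfsg.Agent.H23.S1245
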