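import Cfsg.Agent.H23.S1245.Counting
import Cfsg.Agent.H23.S1245.Three
import Cfsg.Agent.H28.ThreeCountsEven
import Cfsg.Agent.S0205

/-!
# The involution centraliser `2 × PSL₂(q)` is maximal, given Bender's theorem
-/

set_option autoImplicit false
set_option linter.style.haveILetI false

open Matrix MatrixGroups

namespace Cfsg.Agent.H23.S1245

open Cfsg.Agent.H77.JankoRee Cfsg.Agent.H14.Bender

universe u v

variable {G : Type u} [Group G] [Finite G] {F : Type v} [Field F] [Fintype F]

theorem two_ne_zero_of_data {t : G} (D : Data t F) : (2 : F) ≠ 0 :=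
  H6.two_ne_of_odd rfl (by rcases D.q8 with h | h <;> exact Nat.odd_iff.2 (by omega))

theorem card_centralizer_le {t : G} (D : Data t F) :
    Nat.card (Subgroup.centralizer ({t} : Set G)) ≤ 2 * Nat.card (MulAut PSL(2, F)) := by
  classical
  set C := Subgroup.centralizer ({t} : Set G)
  haveI : Fintype C := Fintype.ofFinite _
  haveI : Finite (MulAut PSL(2, F)) := Finite.of_injective _ DFunLike.coe_injective
  haveI : Fintype (MulAut PSL(2, F)) := Fintype.ofFinite _
  have hex : ∀ c : C, ∃ φ : MulAut PSL(2, F), ∀ z, D.j (φ z) = (c : G) * D.j z * (c : G)⁻¹ := by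
    intro c
    choose f hf using fun z => D.conj_mem c c.2 z
    let φ : PSL(2, F) →* PSL(2, F) :=
      { toFun := f
        map_one' := D.j_inj (by simp [hf])
        map_mul' := fun a b => D.j_inj (by simp [hf, mul_assoc]) }
    have hinj : Function.Injective φ := fun a b h => D.j_inj (by
      have := congrArg D.j h
      simpa [φ, hf] using this)
    exact ⟨MulEquiv.ofBijective φ ⟨hinj, Finite.injective_iff_surjective.1 hinj⟩, fun z => hf z⟩
  choose φ hφ using hex
  rw [Nat.card_eq_fintype_card, Nat.card_eq_fintype_card]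
  refine (Finset.card_le_mul_card_image (f := φ) (s := Finset.univ) 2 fun a _ => ?_).trans
    (Nat.mul_le_mul_left 2 (Finset.card_le_univ _))
  by_contra hcon
  push Not at hcon
  obtain ⟨c₁, h₁, c₂, h₂, c₃, h₃, h12, h13, h23⟩ := Finset.two_lt_card.1 hcon
  simp only [Finset.mem_filter, Finset.mem_univ, true_and] at h₁ h₂ h₃
  have key : ∀ c c' : C, φ c = φ c' → c ≠ c' → (c' : G)⁻¹ * c = t := by
    intro c c' h hne
    refine (D.cent_eq _ (mul_mem (inv_mem c'.2) c.2) fun z => ?_).resolve_left fun e => hne ?_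
    · have e : (c : G) * D.j z * (c : G)⁻¹ = (c' : G) * D.j z * (c' : G)⁻¹ := by
        rw [← hφ, ← hφ, h]
      calc (c' : G)⁻¹ * c * D.j z = (c' : G)⁻¹ * ((c : G) * D.j z * (c : G)⁻¹) * c := by group
        _ = D.j z * ((c' : G)⁻¹ * c) := by rw [e]; group
    · exact Subtype.ext (inv_mul_eq_one.1 e).symm
  exact h23 (Subtype.ext (mul_left_cancel ((key c₂ c₁ (h₂.trans h₁.symm) h12.symm).trans
    (key c₃ c₁ (h₃.trans h₁.symm) h13.symm).symm)))

/-- `|C(t)| = 2 |PSL₂(q)| r` with `r` odd and at most `2 n - 1`, `q = p ^ n`. -/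
theorem card_centralizer_eq {t : G} (D : Data t F) {p n : ℕ} [Fact p.Prime] [CharP F p]
    (hn : Fintype.card F = p ^ n) :
    ∃ r : ℕ, Nat.card (Subgroup.centralizer ({t} : Set G)) = 2 * Nat.card PSL(2, F) * r ∧
      Odd r ∧ r + 1 ≤ 2 * n := by
  classical
  haveI : Fact (Nat.Prime 2) := ⟨Nat.prime_two⟩
  set C := Subgroup.centralizer ({t} : Set G) with hCdef
  have h2 := two_ne_zero_of_data D
  have h8 : 8 ∣ Nat.card C := D.S_card ▸ Subgroup.card_dvd_of_le (S_le_centralizer D)
  have h16 : ¬ 16 ∣ Nat.card C := by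
    intro h
    have h' := h.trans (Subgroup.card_subgroup_dvd_card C)
    rw [← (D.S : Subgroup G).card_mul_index, D.S_card,
      show (16 : ℕ) = 8 * 2 by norm_num] at h'
    exact D.S.not_dvd_index (Nat.dvd_of_mul_dvd_mul_left (by norm_num) h')
  have hL : Nat.card PSL(2, F) ∣ Nat.card C :=
    Subgroup.card_dvd_of_injective (D.j.codRestrict C D.j_mem)
      (fun a b h => D.j_inj (congrArg Subtype.val h))
  haveI := D.four
  have hV : Nat.card D.V = 4 := IsKleinFour.card_four
  have ha2 := H6.four_index_odd h2 rfl D.q8 hV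
  have hLa : Nat.card PSL(2, F) = 4 * D.V.index := by rw [← hV, D.V.card_mul_index]
  obtain ⟨b, hb⟩ := h8
  have hb2 : ¬ 2 ∣ b := fun ⟨k, hk⟩ => h16 ⟨k, by rw [hb, hk]; ring⟩
  rw [hLa, hb] at hL
  have hab : D.V.index ∣ b :=
    (Nat.Coprime.dvd_of_dvd_mul_left
      ((Nat.prime_two.coprime_iff_not_dvd.2 ha2).symm)
      (Nat.dvd_of_mul_dvd_mul_left (show 0 < 4 by norm_num) (k := 4)
        (by rwa [show 4 * (2 * b) = 8 * b by ring])))
  obtain ⟨r, rfl⟩ := hab
  have hr2 : ¬ 2 ∣ r := fun h => hb2 (h.trans (Dvd.intro_left _ rfl))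
  have hCr : Nat.card C = 2 * Nat.card PSL(2, F) * r := by rw [hb, hLa]; ring
  refine ⟨r, hCr, Nat.odd_iff.2 (by omega), ?_⟩
  have h := (card_centralizer_le D).trans (Nat.mul_le_mul_left 2 (card_mulAut_le h2 hn))
  rw [← hCdef, hCr] at h
  have hle : r ≤ 2 * n := Nat.le_of_mul_le_mul_left
    (show 2 * Nat.card PSL(2, F) * r ≤ 2 * Nat.card PSL(2, F) * (2 * n) from
      h.trans (le_of_eq (by ring))) (Nat.mul_pos two_pos Nat.card_pos)
  omega

/-- The torus bound: no `q ≥ 5` allows `|PSL₂(q)| ≤ (2 r + 1) c²`. -/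
theorem false_of_bound {t : G} (D : Data t F) (hq3 : Fintype.card F ≠ 3) {p n : ℕ} [Fact p.Prime]
    [CharP F p] (hn : Fintype.card F = p ^ n) {r : ℕ} (hr : r + 1 ≤ 2 * n)
    (h : (invs PSL(2, F)).card ^ 2 ≤ (2 * r + 1) * Nat.card PSL(2, F)) : False := by
  classical
  have h2 := two_ne_zero_of_data D
  obtain ⟨g, hg⟩ := H6.exists_tr_zero h2
  set q := Fintype.card F with hq
  have hIc : (invs PSL(2, F)).card * Nat.card (H6.torDih g) = Nat.card PSL(2, F) := by
    rw [← H6.card_involutions_mul h2 hg, ← Nat.card_eq_finsetCard]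
    congr 1
    exact Nat.card_congr (Equiv.subtypeEquivRight fun a => mem_invs)
  set c := Nat.card (H6.torDih g) with hc
  set L := Nat.card PSL(2, F) with hL
  have hLpos : 0 < L := Nat.card_pos
  have hmain : L ≤ (4 * n - 1) * c ^ 2 := by
    refine Nat.le_of_mul_le_mul_left (a := L) ?_ hLpos
    calc L * L = (invs PSL(2, F)).card ^ 2 * c ^ 2 := by rw [← hIc]; ring
      _ ≤ (2 * r + 1) * L * c ^ 2 := Nat.mul_le_mul_right _ h
      _ ≤ (4 * n - 1) * L * c ^ 2 := by
          exact Nat.mul_le_mul_right _ (Nat.mul_le_mul_right _ (by omega))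
      _ = L * ((4 * n - 1) * c ^ 2) := by ring
  have hodd : q % 2 = 1 := by rcases D.q8 with h | h <;> omega
  have hgcd : Nat.gcd 2 (q - 1) = 2 := Nat.gcd_eq_left (by omega)
  have hcc : c = Nat.card (H6.cent g) := by
    have h1 := H6.card_tor_mul (q := q) rfl g
    rw [hgcd] at h1
    rw [hc, H6.card_torDih (H6.ss_of_tr_zero h2 hg), ← h1]; ring
  have hq1 : 2 ≤ q := Fintype.one_lt_card
  have hP := H6.card_psl2_odd h2 (rfl : Fintype.card F = q)
  rw [← hL] at hP
  have hq8 := D.q8
  rw [← hq] at hq8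
  have hqn : q = 5 ∧ n = 1 ∨ 8 * n ≤ q := by
    have hp : p.Prime := Fact.out
    rcases Nat.lt_or_ge n 3 with hn3 | hn3
    · have hn1 : n = 1 := by
        interval_cases n
        · omega
        · rfl
        · exfalso
          have h1 : p % 2 = 1 := by
            have := congrArg (· % 2) hn
            simp [Nat.pow_mod, hodd] at this
            rcases Nat.mod_two_eq_zero_or_one p with h0 | h0
            · simp [h0] at this
            · exact h0
          have : p ^ 2 % 8 = 1 := by
            rw [Nat.pow_mod]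
            have h3 : p % 8 = 1 ∨ p % 8 = 3 ∨ p % 8 = 5 ∨ p % 8 = 7 := by omega
            rcases h3 with h3 | h3 | h3 | h3 <;> rw [h3]
          rw [← hn] at this
          omega
      omega
    · right
      have h3 : 3 ≤ p := by
        by_contra h3
        have hp2 : p = 2 := le_antisymm (by omega) hp.two_le
        rw [hp2] at hn
        have : q % 2 = 0 := by rw [hn, Nat.pow_mod]; simp [show n ≠ 0 by omega]
        omega
      rw [hn]
      refine le_trans ?_ (Nat.pow_le_pow_left h3 n)
      clear hn hr hmain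
      induction n, hn3 using Nat.le_induction with
      | base => norm_num
      | succ m hm ih => rw [pow_succ]; omega
  obtain ⟨k, hk⟩ : ∃ k, q = k + 2 := ⟨q - 2, by omega⟩
  have e1 : q ^ 2 - 1 = (k + 1) * (k + 3) := by
    rw [hk, show (k + 2) ^ 2 = (k + 1) * (k + 3) + 1 by ring, Nat.add_sub_cancel]
  rw [e1] at hP
  obtain ⟨m, hm⟩ : ∃ m, 4 * n = m + 1 := ⟨4 * n - 1, by omega⟩
  rw [hm, Nat.add_sub_cancel] at hmain
  obtain ⟨c1, c3⟩ := H6.card_cent_tr_zero (q := q) rfl h2 hg
  rcases (show q % 4 = 1 ∨ q % 4 = 3 by omega) with h4 | h4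
  · have : c = k + 1 := by rw [hcc, c1 h4]; omega
    rw [this] at hmain
    rcases hqn with ⟨h5, hn1⟩ | h5
    · have : k = 3 := by omega
      subst this
      have : m = 3 := by omega
      subst this
      omega
    · have hkm : 2 * m ≤ k := by omega
      rw [← hq, hk] at hP
      nlinarith [Nat.mul_le_mul_right ((k + 1) ^ 2) hkm]
  · have : c = k + 3 := by rw [hcc, c3 h4]; omega
    rw [this] at hmain
    have h5 : 8 * n ≤ q := hqn.resolve_left (by omega)
    have hkm : 2 * m ≤ k := by omega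
    rw [← hq, hk] at hP
    nlinarith [Nat.mul_le_mul_right ((k + 3) ^ 2) hkm]

/-- A subgroup in which all seven involutions of `S` are fused to `t` and which has at most
`24²` elements is solvable. -/
theorem isSolvable_of_small {t : G} (D : Data t F) {M : Subgroup G}
    (hC : Subgroup.centralizer ({t} : Set G) ≤ M)
    (hfus : ∀ s ∈ (D.S : Subgroup G), s ≠ 1 → ∃ m ∈ M, m * t * m⁻¹ = s)
    (hsmall : Nat.card M ≤ 576) : Group.IsSolvable M := by
  classical
  haveI : Fact (Nat.Prime 2) := ⟨Nat.prime_two⟩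
  have hSM : (D.S : Subgroup G) ≤ M := (S_le_centralizer D).trans hC
  let P : Sylow 2 M := D.S.subtype hSM
  have hmemP : ∀ g : M, g ∈ (P : Subgroup M) ↔ (g : G) ∈ (D.S : Subgroup G) := fun g => Iff.rfl
  have hPc : Nat.card (P : Subgroup M) = 8 := card_S_subgroupOf D hSM
  let K : Subgroup M := Subgroup.normalizer ((P : Subgroup M) : Set M)
  have hPK : (P : Subgroup M) ≤ K := Subgroup.le_normalizer
  haveI : IsMulCommutative (P : Subgroup M) := ⟨⟨fun a b => Subtype.ext (Subtype.ext
    (S_comm D ((hmemP _).1 a.2) ((hmemP _).1 b.2)))⟩⟩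
  have hK8 : 8 ∣ Nat.card K := hPc ▸ Subgroup.card_dvd_of_le hPK
  have hK3 : 3 ∣ Nat.card K := by
    let x : M := ⟨D.j D.x, hC (D.j_mem _)⟩
    have hx : x ∈ K := by
      obtain ⟨hxN, -⟩ := D.x_facts
      show x ∈ Subgroup.normalizer ((P : Subgroup M) : Set M)
      rw [Subgroup.mem_normalizer_iff]
      intro g
      exact Subgroup.mem_normalizer_iff.1 hxN (g : G)
    have ho : orderOf x = 3 := by
      rw [← Subgroup.orderOf_coe, show (x : G) = D.j D.x from rfl, orderOf_injective D.j D.j_inj,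
        D.x_order]
    exact ho ▸ Subgroup.orderOf_dvd_natCard K hx
  have hK7 : 7 ∣ Nat.card K := by
    let tP : M := ⟨t, hSM D.t_mem⟩
    let T : Set M := ((P : Subgroup M) : Set M) \ {1}
    have hT : T.ncard = 7 := by
      show (((P : Subgroup M) : Set M) \ {1}).ncard = 7
      rw [Set.ncard_sdiff_singleton_of_mem (one_mem (P : Subgroup M)), ← Nat.card_coe_set_eq]
      show Nat.card (P : Subgroup M) - 1 = 7
      rw [hPc]
    have hset : Set.range (fun k : K => (k : M) * tP * (k : M)⁻¹) = T := by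
      apply Set.eq_of_subset_of_subset
      · rintro _ ⟨k, rfl⟩
        refine ⟨(Subgroup.mem_normalizer_iff.1 k.2 tP).1 ((hmemP _).2 D.t_mem), fun h => ?_⟩
        have h' : tP = 1 := conj_eq_one_iff.1 h
        exact D.t_notMem ⟨1, by rw [map_one]; exact (congrArg Subtype.val h').symm⟩
      · rintro s ⟨hs, hs1⟩
        obtain ⟨m, hm, hms⟩ := hfus s ((hmemP _).1 hs) fun h => hs1 (Subtype.ext h)
        have hms' : (⟨m, hm⟩ : M)⁻¹⁻¹ * tP * (⟨m, hm⟩ : M)⁻¹ = s := by
          rw [inv_inv]; exact Subtype.ext hms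
        obtain ⟨k, hk, he⟩ := Sylow.conj_eq_normalizer_conj_of_mem P tP (⟨m, hm⟩ : M)⁻¹
          ((hmemP _).2 D.t_mem) (hms'.symm ▸ hs)
        refine ⟨⟨k⁻¹, inv_mem hk⟩, ?_⟩
        show k⁻¹ * tP * k⁻¹⁻¹ = s
        rw [inv_inv, ← he, hms']
    let H : Subgroup K := (Subgroup.centralizer ({tP} : Set M)).subgroupOf K
    have hcard : H.index = 7 := by
      rw [← hT, ← hset, ← Nat.card_coe_set_eq, Subgroup.index_eq_card]
      refine Nat.card_eq_of_bijective (Quotient.lift (fun k : K => (⟨_, k, rfl⟩ :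
        Set.range (fun k : K => (k : M) * tP * (k : M)⁻¹))) ?_) ⟨?_, ?_⟩
      · intro a b hab
        have h : a⁻¹ * b ∈ H := QuotientGroup.leftRel_apply.1 hab
        rw [Subgroup.mem_subgroupOf, Subgroup.mem_centralizer_singleton_iff] at h
        apply Subtype.ext
        show (a : M) * tP * (a : M)⁻¹ = (b : M) * tP * (b : M)⁻¹
        calc (a : M) * tP * (a : M)⁻¹ = (a : M) * (tP * ((a⁻¹ * b : K) : M)) * (b : M)⁻¹ := by
              simp [mul_assoc]
          _ = (a : M) * (((a⁻¹ * b : K) : M) * tP) * (b : M)⁻¹ := by rw [h]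
          _ = _ := by simp [mul_assoc]
      · intro a b
        induction a using QuotientGroup.induction_on with | _ a => ?_
        induction b using QuotientGroup.induction_on with | _ b => ?_
        intro h
        have h' : (a : M) * tP * (a : M)⁻¹ = (b : M) * tP * (b : M)⁻¹ := congrArg Subtype.val h
        rw [QuotientGroup.eq, Subgroup.mem_subgroupOf, Subgroup.mem_centralizer_singleton_iff]
        calc ((a⁻¹ * b : K) : M) * tP = (a : M)⁻¹ * ((b : M) * tP * (b : M)⁻¹) * (b : M) := by
              simp [mul_assoc]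
          _ = tP * ((a⁻¹ * b : K) : M) := by rw [← h']; simp [mul_assoc]
      · rintro ⟨_, k, rfl⟩
        exact ⟨QuotientGroup.mk k, rfl⟩
    exact hcard ▸ H.index_dvd_card
  have h168 : 168 ∣ Nat.card K := by
    have := Nat.Coprime.mul_dvd_of_dvd_of_dvd (by norm_num : Nat.Coprime (8 * 3) 7)
      (Nat.Coprime.mul_dvd_of_dvd_of_dvd (by norm_num : Nat.Coprime 8 3) hK8 hK3) hK7
    simpa using this
  have hidx : K.index ≤ 3 := by
    have h1 := K.card_mul_index
    have h2 : 168 ≤ Nat.card K := Nat.le_of_dvd Nat.card_pos h168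
    by_contra h
    nlinarith
  have hKsol : Group.IsSolvable K := by
    let P' : Subgroup K := (P : Subgroup M).subgroupOf K
    haveI : P'.Normal := Subgroup.normal_in_normalizer
    haveI : IsMulCommutative P' := ⟨⟨fun a b => Subtype.ext (Subtype.ext (Subtype.ext
      (S_comm D ((hmemP _).1 a.2) ((hmemP _).1 b.2))))⟩⟩
    haveI : Group.IsSolvable P' := Group.isSolvable_of_comm (fun a b => mul_comm' a b)
    have hodd : Odd (Nat.card (K ⧸ P')) := by
      rw [← Subgroup.index_eq_card, Nat.odd_iff]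
      have hd : ¬ 2 ∣ P'.index := fun h => P.not_dvd_index (h.trans (Dvd.intro _
        (Subgroup.relIndex_mul_index hPK)))
      omega
    haveI := S0205.result hodd
    exact solvable_of_ker_le_range P'.subtype (QuotientGroup.mk' P')
      (by rw [QuotientGroup.ker_mk', Subgroup.range_subtype])
  haveI : Fintype (M ⧸ K) := Fintype.ofFinite _
  let f := MulAction.toPermHom M (M ⧸ K)
  haveI : Group.IsSolvable f.range := by
    apply H28.ThreeCounts.isSolvable_of_primeFactors_le_two
    have hd : Nat.card f.range ∣ 6 := by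
      refine (Subgroup.card_subgroup_dvd_card _).trans ?_
      rw [Nat.card_perm, ← Subgroup.index_eq_card]
      have := Nat.pos_of_ne_zero (Subgroup.index_ne_zero_of_finite (H := K))
      interval_cases K.index <;> decide
    refine (Finset.card_le_card (Nat.primeFactors_mono hd (by norm_num))).trans ?_
    rw [show (6 : ℕ) = 2 * 3 from rfl, Nat.primeFactors_mul (by norm_num) (by norm_num),
      Nat.prime_two.primeFactors, Nat.prime_three.primeFactors]
    rfl
  have hker : f.ker ≤ K := by
    intro m hm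
    have h := Equiv.ext_iff.1 (MonoidHom.mem_ker.1 hm) ((1 : M) : M ⧸ K)
    simpa [f, QuotientGroup.eq] using h
  haveI : Group.IsSolvable f.ker :=
    solvable_of_solvable_injective (Subgroup.inclusion_injective hker)
  exact solvable_of_ker_le_range f.ker.subtype f.rangeRestrict
    (by rw [MonoidHom.ker_rangeRestrict, Subgroup.range_subtype])

/-- Given Bender's theorem, a proper overgroup of `C(t)` in a simple group is `C(t)`. -/
theorem eq_centralizer {G : Type u} [Group G] [Finite G] [IsSimpleGroup G] (hAll : AllConc.{u})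
    (hna : ¬ IsMulCommutative G) {F : Type} [Field F] [Fintype F] {t : G} (ht : orderOf t = 2)
    (D : Data t F) {M : Subgroup G} (hM : M ≠ ⊤)
    (hC : Subgroup.centralizer ({t} : Set G) ≤ M) : M = Subgroup.centralizer ({t} : Set G) := by
  classical
  have h2 := two_ne_zero_of_data D
  by_cases hiso : ∀ m ∈ M, Commute t (m * t * m⁻¹) → m * t * m⁻¹ = t
  · exact le_antisymm (le_centralizer_of_isolated hna ht D h2 hC hiso) hC
  push Not at hiso
  obtain ⟨m, hm, hc, hne⟩ := hiso
  exfalso
  have hfus := fusion_full D ht hC hm hc hne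
  have hSE := isStronglyEmbedded_of_fusion D ht hM hC hfus
  have hcore : M.normalCore = ⊥ :=
    ((M.normalCore_normal).eq_bot_or_eq_top).resolve_right fun h =>
      hM (top_le_iff.1 (h ▸ M.normalCore_le))
  have hSM : (D.S : Subgroup G) ≤ M := (S_le_centralizer D).trans hC
  have hconj : ∀ s ∈ M, orderOf s = 2 → ∃ m ∈ M, m * t * m⁻¹ = s := by
    intro s hs hs2
    obtain ⟨a, ha, haS⟩ := exists_conj_mem_S D hSM hs hs2
    obtain ⟨k, hk, hkt⟩ := hfus _ haS (by
      intro h
      have := H28.orderOf_conj_eq a s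
      rw [h, orderOf_one, hs2] at this
      exact absurd this (by norm_num))
    exact ⟨a⁻¹ * k, mul_mem (inv_mem ha) hk, by
      calc a⁻¹ * k * t * (a⁻¹ * k)⁻¹ = a⁻¹ * (k * t * k⁻¹) * a := by group
        _ = s := by rw [hkt]; group⟩
  obtain ⟨v, hv, hv1⟩ : ∃ v ∈ D.V, v ≠ 1 := by
    haveI := D.four
    by_contra h
    push Not at h
    have : Nat.card D.V = 1 := Subgroup.card_eq_one.2 ((Subgroup.eq_bot_iff_forall _).2 h)
    rw [IsKleinFour.card_four] at this
    norm_num at this
  have hvS : D.j v ∈ (D.S : Subgroup G) := (D.S_cases _).2 ⟨v, hv, Or.inl rfl⟩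
  have hv2 : orderOf (D.j v) = 2 := orderOf_eq_prime (by rw [sq, D.S_sq _ hvS]) fun h =>
    hv1 (D.j_inj (by rw [h, map_one]))
  have hup := ncard_involutions_le hAll hSE hcore hv2 ht (fun h => D.t_notMem ⟨v, h⟩)
    (S_comm D hvS D.t_mem) (hSM D.t_mem)
  have hlow := two_mul_oddPairs_le D ht hC hconj
  obtain ⟨p, hchar⟩ := CharP.exists F
  obtain ⟨n, hp, hn⟩ := FiniteField.card F p
  haveI : Fact p.Prime := ⟨hp⟩
  obtain ⟨r, hCr, -, hr⟩ := card_centralizer_eq D hn
  by_cases hq3 : Fintype.card F = 3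
  · refine false_of_three hna hq3 ht D M hSE ?_ hC hfus
    apply isSolvable_of_small D hC hfus
    have h12 : Nat.card PSL(2, F) = 12 := by
      have := H6.card_psl2_odd h2 hq3
      omega
    have hn1 : (n : ℕ) = 1 := by
      rcases Nat.lt_or_ge 1 (n : ℕ) with h | h
      · have h1 : p ^ 2 ≤ p ^ (n : ℕ) := Nat.pow_le_pow_right hp.pos h
        have h2' : 2 ^ 2 ≤ p ^ 2 := Nat.pow_le_pow_left hp.two_le 2
        omega
      · have := n.pos; omega
    have hr1 : r ≤ 1 := by omega
    have hC24 : Nat.card (Subgroup.centralizer ({t} : Set G)) ≤ 24 := by rw [hCr, h12]; nlinarith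
    haveI : Fintype M := Fintype.ofFinite _
    set I : Finset G := (Set.toFinite {s : G | s ∈ M ∧ orderOf s = 2}).toFinset with hI
    have hle : Fintype.card M ≤ Nat.card (Subgroup.centralizer ({t} : Set G)) * I.card := by
      rw [← Finset.card_univ]
      refine (Finset.card_le_mul_card_image_of_maps_to (f := fun k : M => (k : G) * t * (k : G)⁻¹)
        (t := I) (fun k _ => ?_) _ fun s _ => ?_)
      · rw [hI, Set.Finite.mem_toFinset]
        exact ⟨mul_mem (mul_mem k.2 (hSM D.t_mem)) (inv_mem k.2), by rw [H28.orderOf_conj_eq, ht]⟩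
      · by_cases hs : ∃ k : M, (k : G) * t * (k : G)⁻¹ = s
        · obtain ⟨k₀, hk₀⟩ := hs
          rw [← Nat.card_eq_finsetCard]
          refine Nat.card_le_card_of_injective
            (fun k => (⟨(k₀ : G)⁻¹ * ((k : M) : G), ?_⟩ : Subgroup.centralizer ({t} : Set G)))
            fun a b h => ?_
          · have hk := (Finset.mem_filter.1 k.2).2
            rw [Subgroup.mem_centralizer_singleton_iff]
            calc (k₀ : G)⁻¹ * ((k : M) : G) * t
                = (k₀ : G)⁻¹ * (((k : M) : G) * t * ((k : M) : G)⁻¹) * ((k : M) : G) := by group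
              _ = (k₀ : G)⁻¹ * ((k₀ : G) * t * (k₀ : G)⁻¹) * ((k : M) : G) := by
                  rw [hk.trans hk₀.symm]
              _ = t * ((k₀ : G)⁻¹ * ((k : M) : G)) := by group
          · exact Subtype.ext (Subtype.ext (mul_left_cancel (congrArg Subtype.val h)))
        · rw [Finset.card_eq_zero.2 (Finset.filter_eq_empty_iff.2 fun k _ h => hs ⟨k, h⟩)]
          exact Nat.zero_le _
    have hIc : I.card ≤ 24 := by
      rw [← Set.ncard_eq_toFinset_card _ (Set.toFinite _)]; omega
    rw [Nat.card_eq_fintype_card]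
    nlinarith
  · refine false_of_bound D hq3 hn hr ?_
    have hsq := sq_invs_le h2 (not_four_dvd D)
    rw [hCr] at hup
    nlinarith

end Cfsg.Agent.H23.S1245
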