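import Cfsg.Prelude.Def_TwoFusion
import Cfsg.Agent.H23.S1245.Closing

/-!
# The statement S1245 with Bender's theorem as hypothesis
-/

set_option autoImplicit false

open Matrix MatrixGroups

namespace Cfsg.Agent.H23.S1245

open Cfsg.Agent.H14.Bender

universe u

theorem isCoatom_of_allConc (hAll : AllConc.{u}) {G : Type u} [Group G] [Finite G] [IsSimpleGroup G]
    (hna : ¬ IsMulCommutative G) (S : Sylow 2 G) (hS : IsMulCommutative (S : Subgroup G)) (t : G)
    (ht : orderOf t = 2) (E E₀ : Subgroup G)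
    (hprod : Cfsg.IsInternalDirectProduct (Subgroup.zpowers t) E (Subgroup.centralizer ({t} : Set G)))
    (hE₀E : E₀ ≤ E) (hE₀n : (E₀.subgroupOf E).Normal)
    (hE₀ : ∃ (F : Type) (_ : Field F) (_ : Fintype F), Odd (Fintype.card F) ∧
      Nonempty (E₀ ≃* Matrix.ProjectiveSpecialLinearGroup (Fin 2) F))
    (hCE : E ⊓ Subgroup.centralizer (E₀ : Set G) = ⊥) :
    IsCoatom (Subgroup.centralizer ({t} : Set G)) := by
  obtain ⟨F, _, _, hFo, ⟨e⟩⟩ := hE₀
  have hab : ∀ P : Sylow 2 G, IsMulCommutative ↥(P : Subgroup G) := fun P => by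
    have e' := Sylow.equiv P S
    exact ⟨⟨fun a b => e'.injective (by rw [map_mul, map_mul]; exact hS.is_comm.comm _ _)⟩⟩
  haveI := hE₀n
  have hNc : Subgroup.centralizer ((E₀.subgroupOf E : Subgroup E) : Set E) = ⊥ := by
    rw [Subgroup.eq_bot_iff_forall]
    intro y hy
    have : (y : G) ∈ E ⊓ Subgroup.centralizer (E₀ : Set G) :=
      ⟨y.2, Subgroup.mem_centralizer_iff.2 fun z hz =>
        congrArg Subtype.val (Subgroup.mem_centralizer_iff.1 hy ⟨z, hE₀E hz⟩ hz)⟩
    rw [hCE, Subgroup.mem_bot] at this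
    exact Subtype.ext this
  obtain ⟨D⟩ := H77.JankoRee.nonempty_data (F := F) hab t ht E hprod hFo (E₀.subgroupOf E)
    ⟨(Subgroup.subgroupOfEquivOfLe hE₀E).trans e⟩ hNc
  refine ⟨fun htop => ?_, fun M hlt => ?_⟩
  · have htc : t ∈ Subgroup.center G := by
      rw [Subgroup.mem_center_iff]
      intro g
      exact Subgroup.mem_centralizer_singleton_iff.1 (htop ▸ Subgroup.mem_top g)
    rcases (inferInstance : (Subgroup.center G).Normal).eq_bot_or_eq_top with h | h
    · rw [h, Subgroup.mem_bot] at htc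
      rw [htc, orderOf_one] at ht
      exact absurd ht (by norm_num)
    · exact hna ⟨⟨fun a b => (Subgroup.mem_center_iff.1 (h ▸ Subgroup.mem_top a) b).symm⟩⟩
  · by_contra hM
    exact hlt.ne (eq_centralizer hAll hna ht D hM hlt.le).symm

end Cfsg.Agent.H23.S1245
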