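import Cfsg.Agent.H6.Four
import Cfsg.Agent.H77.PSL2Aut

/-!
# Pairs of involutions of `PSL₂(q)` with product of odd order

With `I` involutions there are at least `(I² - |L|)/2` ordered pairs of involutions with odd
product, and there are at most `2f|L|` automorphisms.
-/

set_option autoImplicit false
set_option linter.unusedSectionVars false

open Matrix MatrixGroups

namespace Cfsg.Agent.H23.S1245

variable {F : Type*} [Field F] [Fintype F]

local notation "M₂" => Matrix (Fin 2) (Fin 2) F

/-- An element of odd order in the dihedral torus normaliser lies in the torus. -/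
theorem mem_tor_of_odd (h2 : (2 : F) ≠ 0) {g : SL(2, F)} (ht : H6.tr g = 0) {z : PSL(2, F)}
    (hz : Odd (orderOf z)) (hc : z * H6.π g = H6.π g * z) : z ∈ H6.tor g := by
  by_contra hn
  obtain ⟨h1, hne, -⟩ := H6.outside_torDih (H6.ss_of_tr_zero h2 ht)
    ((H6.mem_centralizer_involution h2 ht).1 hc) hn
  have h2' : orderOf z = 2 := orderOf_eq_prime (by rw [sq, h1]) hne
  rw [h2'] at hz
  exact absurd hz (by decide)

/-- At most one involution commutes with a given nontrivial element of odd order. -/
theorem involution_unique (h2 : (2 : F) ≠ 0) {z k k' : PSL(2, F)} (hz : Odd (orderOf z))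
    (hz1 : z ≠ 1) (hk : orderOf k = 2) (hk' : orderOf k' = 2) (hc : z * k = k * z)
    (hc' : z * k' = k' * z) : k = k' := by
  obtain ⟨g, rfl⟩ := H6.π_surjective k
  obtain ⟨g', rfl⟩ := H6.π_surjective k'
  obtain ⟨A, rfl⟩ := H6.π_surjective z
  have hg := (H6.orderOf_π_eq_two_iff h2).1 hk
  have hg' := (H6.orderOf_π_eq_two_iff h2).1 hk'
  have e := H6.tor_eq_of_mem (H6.not_isScal_of_ss (H6.ss_of_tr_zero h2 hg))
    (mem_tor_of_odd h2 hg hz hc) hz1
  have e' := H6.tor_eq_of_mem (H6.not_isScal_of_ss (H6.ss_of_tr_zero h2 hg'))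
    (mem_tor_of_odd h2 hg' hz hc') hz1
  have hmem : H6.π g' ∈ H6.tor g := by
    rw [← e, e']; exact H6.self_mem_tor g'
  exact (H6.eq_of_involution_mem_tor h2 hg hmem hk').symm

/-- The involutions. -/
noncomputable def invs (G : Type*) [Group G] [Finite G] : Finset G :=
  (Set.toFinite {a : G | orderOf a = 2}).toFinset

theorem mem_invs {G : Type*} [Group G] [Finite G] {a : G} : a ∈ invs G ↔ orderOf a = 2 := by
  simp [invs]

open scoped Classical in
/-- For each involution `a`, at most twice as many involutions as have odd product with `a`,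
apart from those commuting with `a`. -/
theorem card_invs_le (h2 : (2 : F) ≠ 0) (h4 : ∀ z : PSL(2, F), ¬ 4 ∣ orderOf z)
    {g : SL(2, F)} (hg : H6.tr g = 0) :
    (invs PSL(2, F)).card ≤
      2 * ((invs PSL(2, F)).filter fun b => Odd (orderOf (H6.π g * b))).card +
        Nat.card (H6.torDih g) := by
  classical
  set a := H6.π g with ha
  have ha2 : orderOf a = 2 := (H6.orderOf_π_eq_two_iff h2).2 hg
  have haa : a * a = 1 := by
    have := pow_orderOf_eq_one a
    rwa [ha2, sq] at this
  set B := (invs PSL(2, F)).filter fun b => a * b ≠ b * a with hB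
  have hsq : ∀ b ∈ invs PSL(2, F), b * b = 1 := fun b hb => by
    have := pow_orderOf_eq_one b
    rwa [mem_invs.1 hb, sq] at this
  have hodd : ∀ y : PSL(2, F), Odd (orderOf (y * y)) := fun y => by
    rw [← sq, orderOf_pow' y two_ne_zero, Nat.odd_iff]
    have := h4 y
    rcases Nat.even_or_odd (orderOf y) with ⟨m, hm⟩ | hm
    · rw [hm, show m + m = 2 * m by ring, Nat.gcd_mul_right_left, Nat.mul_div_cancel_left _ two_pos]
      omega
    · rw [Nat.Coprime.gcd_eq_one (Nat.coprime_two_right.2 hm), Nat.div_one]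
      exact Nat.odd_iff.1 hm
  have h1 : B.card ≤ 2 * ((invs PSL(2, F)).filter fun b => Odd (orderOf (a * b))).card := by
    refine Finset.card_le_mul_card_image_of_maps_to (f := fun b => b * a * b) (fun b hb => ?_) 2 ?_
    · obtain ⟨hb, hne⟩ := Finset.mem_filter.1 hb
      refine Finset.mem_filter.2 ⟨mem_invs.2 ?_, ?_⟩
      · have : b * a * b = MulAut.conj b a := by
          rw [MulAut.conj_apply, inv_eq_of_mul_eq_one_right (hsq b hb)]
        rw [this]
        exact (orderOf_injective (MulAut.conj b).toMonoidHom (MulAut.conj b).injective a).trans ha2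
      · have : a * (b * a * b) = a * b * (a * b) := by simp only [mul_assoc]
        rw [this]
        exact hodd _
    · intro w hw
      by_contra hcon
      push Not at hcon
      obtain ⟨b₁, hb₁, b₂, hb₂, b₃, hb₃, h12, h13, h23⟩ :=
        Finset.two_lt_card.1 hcon
      simp only [Finset.mem_filter, hB] at hb₁ hb₂ hb₃
      set z := a * w with hzdef
      have hz : ∀ b : PSL(2, F), b * a * b = w → a * b * (a * b) = z := fun b hb => by
        rw [hzdef, ← hb]; simp only [mul_assoc]
      have hzo : Odd (orderOf z) := by rw [← hz b₁ hb₁.2]; exact hodd _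
      have hz1 : z ≠ 1 := by
        intro h
        apply hb₁.1.2
        have hbb := hsq b₁ hb₁.1.1
        have h' := hz b₁ hb₁.2
        rw [h] at h'
        calc a * b₁ = (a * b₁)⁻¹ := eq_inv_of_mul_eq_one_left h'
          _ = b₁ * a := by
            rw [_root_.mul_inv_rev, inv_eq_of_mul_eq_one_right haa,
              inv_eq_of_mul_eq_one_right hbb]
      obtain ⟨r, hr⟩ := hzo
      set s := z ^ (r + 1) with hs
      have hss : s * s = z := by
        rw [hs, ← pow_add, show r + 1 + (r + 1) = orderOf z + 1 by omega, pow_succ,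
          pow_orderOf_eq_one, one_mul]
      let k : PSL(2, F) → PSL(2, F) := fun b => a * b * s⁻¹
      have hk : ∀ b, b * a * b = w → (k b * k b = 1 ∧ z * k b = k b * z) := fun b hb => by
        have hc : Commute (a * b) z := by
          rw [← hz b hb]; exact ((Commute.refl _).mul_right (Commute.refl _))
        have hcs : Commute (a * b) s⁻¹ := (hc.pow_right _).inv_right
        refine ⟨?_, ((hc.symm).mul_right ((Commute.refl z).pow_right _).inv_right).eq⟩
        show a * b * s⁻¹ * (a * b * s⁻¹) = 1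
        calc a * b * s⁻¹ * (a * b * s⁻¹) = a * b * (s⁻¹ * (a * b)) * s⁻¹ := by simp only [mul_assoc]
          _ = a * b * (a * b * s⁻¹) * s⁻¹ := by rw [hcs.eq]
          _ = a * b * (a * b) * (s⁻¹ * s⁻¹) := by simp only [mul_assoc]
          _ = 1 := by rw [hz b hb, ← _root_.mul_inv_rev, hss, mul_inv_cancel]
      have hinj : ∀ b b', k b = k b' → b = b' := fun b b' h => by simpa [k] using h
      have hzo' : Odd (orderOf z) := ⟨r, hr⟩
      have hcase : ∀ b b', b * a * b = w → b' * a * b' = w → k b ≠ 1 → k b' ≠ 1 → b = b' := by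
        intro b b' hb hb' hn hn'
        exact hinj b b' (involution_unique h2 hzo' hz1
          (orderOf_eq_prime (by rw [sq, (hk b hb).1]) hn)
          (orderOf_eq_prime (by rw [sq, (hk b' hb').1]) hn') (hk b hb).2 (hk b' hb').2)
      by_cases e1 : k b₁ = 1
      · exact h23 (hcase _ _ hb₂.2 hb₃.2 (fun e => h12 (hinj _ _ (e1.trans e.symm)))
          (fun e => h13 (hinj _ _ (e1.trans e.symm))))
      · by_cases e2 : k b₂ = 1
        · exact h13 (hcase _ _ hb₁.2 hb₃.2 e1 (fun e => h23 (hinj _ _ (e2.trans e.symm))))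
        · exact h12 (hcase _ _ hb₁.2 hb₂.2 e1 e2)
  have h3 : ((invs PSL(2, F)).filter fun b => a * b = b * a).card ≤ Nat.card (H6.torDih g) := by
    rw [← Nat.card_eq_finsetCard]
    refine Nat.card_le_card_of_injective (fun b => (⟨(b : PSL(2, F)),
      (H6.mem_centralizer_involution h2 hg).1 ?_⟩ : H6.torDih g)) ?_
    · exact ((Finset.mem_filter.1 b.2).2).symm
    · exact fun b b' h => Subtype.ext (congrArg (fun x : H6.torDih g => (x : PSL(2, F))) h)
  have h5 := Finset.card_filter_add_card_filter_not (s := invs PSL(2, F))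
    (fun b => a * b = b * a)
  have h6 : B.card = ((invs PSL(2, F)).filter fun b => ¬ a * b = b * a).card := rfl
  have h7 : ((invs PSL(2, F)).filter fun b => Odd (orderOf (a * b))).card =
      ((invs PSL(2, F)).filter fun b => Odd (orderOf (H6.π g * b))).card := by
    congr 1
  omega

/-- The pairs of involutions with product of odd order. -/
def oddPairs (G : Type*) [Group G] : Set (G × G) :=
  {p | orderOf p.1 = 2 ∧ orderOf p.2 = 2 ∧ Odd (orderOf (p.1 * p.2))}

/-- `I ² ≤ 2 P + |L|` for the `I` involutions and `P` pairs with odd product. -/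
theorem sq_invs_le (h2 : (2 : F) ≠ 0) (h4 : ∀ z : PSL(2, F), ¬ 4 ∣ orderOf z) :
    (invs PSL(2, F)).card ^ 2 ≤ 2 * (oddPairs PSL(2, F)).ncard + Nat.card PSL(2, F) := by
  classical
  obtain ⟨g₀, hg₀⟩ := H6.exists_tr_zero h2
  set I := invs PSL(2, F) with hI
  have hIc : I.card * Nat.card (H6.torDih g₀) = Nat.card PSL(2, F) := by
    rw [← H6.card_involutions_mul h2 hg₀, ← Nat.card_eq_finsetCard]
    congr 1
    exact Nat.card_congr (Equiv.subtypeEquivRight fun a => mem_invs)
  have hsum : ∀ a ∈ I, I.card ≤ 2 * (I.filter fun b => Odd (orderOf (a * b))).card +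
      Nat.card (H6.torDih g₀) := by
    intro a ha
    obtain ⟨g, rfl⟩ := H6.π_surjective a
    have hg := (H6.orderOf_π_eq_two_iff h2).1 (mem_invs.1 ha)
    have hc : Nat.card (H6.torDih g) = Nat.card (H6.torDih g₀) := by
      have := H6.card_involutions_mul h2 hg
      rw [← H6.card_involutions_mul h2 hg₀] at this
      refine Nat.eq_of_mul_eq_mul_left ?_ this
      haveI : Nonempty {a : PSL(2, F) // orderOf a = 2} := ⟨⟨_, mem_invs.1 ha⟩⟩
      exact Nat.card_pos
    rw [← hc]
    exact card_invs_le h2 h4 hg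
  have h := Finset.sum_le_sum hsum
  rw [Finset.sum_const, smul_eq_mul, Finset.sum_add_distrib, ← Finset.mul_sum, Finset.sum_const,
    smul_eq_mul, hIc, ← sq] at h
  have hP : (∑ a ∈ I, (I.filter fun b => Odd (orderOf (a * b))).card) =
      (oddPairs PSL(2, F)).ncard := by
    have e : oddPairs PSL(2, F) =
        ((I ×ˢ I).filter fun p => Odd (orderOf (p.1 * p.2)) : Finset _) := by
      ext p
      simp [oddPairs, hI, mem_invs, and_assoc]
    rw [e, Set.ncard_coe_finset, Finset.card_filter, Finset.sum_product]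
    exact Finset.sum_congr rfl fun a _ => Finset.card_filter _ _
  omega

/-- The field with `p ^ n` elements has at most `n` automorphisms. -/
theorem card_ringAut_le {p n : ℕ} [Fact p.Prime] [CharP F p] (h : Fintype.card F = p ^ n) :
    Nat.card (F ≃+* F) ≤ n := by
  letI : Algebra (ZMod p) F := ZMod.algebra F p
  let ψ : (F ≃+* F) ≃ (F ≃ₐ[ZMod p] F) :=
    { toFun := fun τ => AlgEquiv.ofRingEquiv (f := τ) fun r => by
        rw [← ZMod.natCast_zmod_val r, map_natCast, map_natCast]
      invFun := fun τ => τ.toRingEquiv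
      left_inv := fun τ => rfl
      right_inv := fun τ => rfl }
  rw [Nat.card_congr ψ, Nat.card_eq_fintype_card]
  refine AlgEquiv.card_le.trans (le_of_eq ?_)
  have h' : Fintype.card F = Fintype.card (ZMod p) ^ Module.finrank (ZMod p) F :=
    Module.card_eq_pow_finrank
  rw [ZMod.card, h] at h'
  exact (Nat.pow_right_injective (Fact.out : p.Prime).two_le h').symm

/-- `|Aut PSL₂(q)| ≤ 2 n |PSL₂(q)|` for `q = p ^ n` odd. -/
theorem card_mulAut_le (h2 : (2 : F) ≠ 0) {p n : ℕ} [Fact p.Prime] [CharP F p]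
    (h : Fintype.card F = p ^ n) :
    Nat.card (MulAut PSL(2, F)) ≤ 2 * n * Nat.card PSL(2, F) := by
  classical
  haveI : Finite (F ≃+* F) := Finite.of_injective _ DFunLike.coe_injective
  have hex := fun β : MulAut PSL(2, F) => H77.PSL2Aut.exists_conj_field h2 β
  choose σ M M' hM hM' hβ using hex
  let U : MulAut PSL(2, F) → GL (Fin 2) F := fun β => ⟨M β, M' β, hM β, hM' β⟩
  let sc : Fˣ → GL (Fin 2) F := fun l => Units.map (Matrix.scalar (Fin 2)).toMonoidHom l
  have hsc : ∀ (l : Fˣ) (β), ((sc l * U β : GL (Fin 2) F) : M₂) = (l : F) • M β := fun l β => by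
    show Matrix.scalar (Fin 2) (l : F) * M β = _
    rw [Matrix.scalar_apply, ← Matrix.smul_one_eq_diagonal, smul_mul_assoc, one_mul]
  let Φ : MulAut PSL(2, F) × Fˣ → (F ≃+* F) × GL (Fin 2) F := fun x => (σ x.1, sc x.2 * U x.1)
  have hΦ : Function.Injective Φ := by
    rintro ⟨β, l⟩ ⟨β', l'⟩ e
    obtain ⟨e1, e2⟩ := Prod.mk.injEq .. ▸ e
    have e3 : (l : F) • M β = (l' : F) • M β' := by
      rw [← hsc, ← hsc]; exact congrArg Units.val e2
    have hconj : ∀ A : M₂, M β * A * M' β = M β' * A * M' β' := by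
      intro A
      have hMb : M β' = ((l'⁻¹ * l : Fˣ) : F) • M β := by
        rw [Units.val_mul, mul_smul, e3, ← mul_smul, ← Units.val_mul, inv_mul_cancel, Units.val_one,
          one_smul]
      have hMb' : M' β' = ((l⁻¹ * l' : Fˣ) : F) • M' β := by
        have : M β' * (((l⁻¹ * l' : Fˣ) : F) • M' β) = 1 := by
          rw [hMb, smul_mul_assoc, mul_smul_comm, ← mul_smul, ← Units.val_mul, hM]
          simp [mul_assoc]
        calc M' β' = M' β' * (M β' * (((l⁻¹ * l' : Fˣ) : F) • M' β)) := by rw [this, mul_one]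
          _ = _ := by rw [← mul_assoc, hM', one_mul]
      rw [hMb, hMb', smul_mul_assoc, smul_mul_assoc, mul_smul_comm, ← mul_smul, ← Units.val_mul,
        show l'⁻¹ * l * (l⁻¹ * l') = (1 : Fˣ) by group, Units.val_one, one_smul]
    have hbb : β = β' := by
      ext x
      obtain ⟨g, rfl⟩ := H6.π_surjective x
      obtain ⟨h₁, h₁e⟩ := H6.π_surjective (β (H6.π g))
      obtain ⟨h₂, h₂e⟩ := H6.π_surjective (β' (H6.π g))
      rw [← h₁e, ← h₂e, H6.π_eq_iff]
      have c1 := hβ β g h₁ h₁e.symm
      have c2 := hβ β' g h₂ h₂e.symm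
      rw [e1, hconj] at c1
      have hor : (h₁ : M₂) = (h₂ : M₂) ∨ (h₁ : M₂) = -(h₂ : M₂) := by
        rcases c1 with c1 | c1 <;> rcases c2 with c2 | c2 <;> rw [c1, c2] <;> simp
      rcases hor with h | h
      · exact Or.inl (Subtype.ext h)
      · exact Or.inr (Subtype.ext h)
    subst hbb
    have hl : (l : F) = l' := by
      have := congrArg (fun A : M₂ => A * M' β) e3
      simp only [smul_mul_assoc, hM] at this
      have := congrFun (congrFun this 0) 0
      simpa using this
    rw [Units.ext hl]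
  have hle := Nat.card_le_card_of_injective Φ hΦ
  rw [Nat.card_prod, Nat.card_prod, Matrix.card_GL_field, Fin.prod_univ_two,
    Nat.card_eq_fintype_card (α := Fˣ), Fintype.card_units] at hle
  have hr := card_ringAut_le (F := F) h
  set q := Fintype.card F with hq
  have hP := H6.card_psl2_odd h2 (rfl : Fintype.card F = q)
  have hq2 : 2 ≤ q := Fintype.one_lt_card
  refine Nat.le_of_mul_le_mul_right (hle.trans ((Nat.mul_le_mul_right _ hr).trans (le_of_eq ?_)))
    (show 0 < q - 1 by omega)
  rw [show 2 * n * Nat.card PSL(2, F) = n * (2 * Nat.card PSL(2, F)) by ring, hP, ← hq]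
  obtain ⟨k, hk⟩ : ∃ k, q = k + 2 := ⟨q - 2, by omega⟩
  rw [hk]
  simp only [Fin.val_zero, Fin.val_one, pow_zero, pow_one]
  have e1 : (k + 2) ^ 2 - 1 = (k + 1) * (k + 3) := by
    rw [show (k + 2) ^ 2 = (k + 1) * (k + 3) + 1 by ring, Nat.add_sub_cancel]
  have e2 : (k + 2) ^ 2 - (k + 2) = (k + 2) * (k + 1) := by
    rw [show (k + 2) ^ 2 = (k + 2) * (k + 1) + (k + 2) by ring, Nat.add_sub_cancel]
  rw [e1, e2, show k + 2 - 1 = k + 1 by omega]
  ring

end Cfsg.Agent.H23.S1245
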