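import Cfsg.Agent.H23.S1245.Main
import Cfsg.Agent.H23.S1245.PSLCount
import Cfsg.Agent.H14.Bender.Assembly
import Cfsg.Agent.H14.Bender.FinalBase

/-!
# Counting involutions in a strongly embedded overgroup of `2 × PSL₂(q)`

Bender's theorem bounds the involutions of `M` by `|C(t)|`; the pairs of involutions with product
of even order give more when `q ≥ 5`.
-/

set_option autoImplicit false
set_option linter.style.haveILetI false

open Matrix MatrixGroups
open scoped Pointwise

namespace Cfsg.Agent.H23.S1245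

open Cfsg.Agent.H77.JankoRee Cfsg.Agent.H14.Bender

universe u v

variable {G : Type u} [Group G] [Finite G] {F : Type v} [Field F] [Fintype F]

theorem not_four_dvd {t : G} (D : Data t F) (z : PSL(2, F)) : ¬ 4 ∣ orderOf z := by
  intro h
  haveI : Fact (Nat.Prime 2) := ⟨Nat.prime_two⟩
  set w := D.j (z ^ (orderOf z / 4))
  have hw : orderOf w = 4 := by
    rw [orderOf_injective D.j D.j_inj, orderOf_pow_orderOf_div (orderOf_pos z).ne' h]
  obtain ⟨P, hP⟩ := (IsPGroup.of_card (n := 2) (by rw [Nat.card_zpowers, hw]; norm_num) :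
      IsPGroup 2 (Subgroup.zpowers w)).exists_le_sylow
  obtain ⟨g, hg⟩ := MulAction.exists_smul_eq G P D.S
  have h1 : MulAut.conj g • w ∈ MulAut.conj g • (P : Subgroup G) :=
    Subgroup.smul_mem_pointwise_smul _ _ _ (hP (Subgroup.mem_zpowers _))
  rw [← Sylow.coe_subgroup_smul] at h1
  have h2 : MulAut.conj g • w ∈ ((g • P : Sylow 2 G) : Subgroup G) := h1
  rw [hg] at h2
  have h3 : MulAut.conj g w * MulAut.conj g w = 1 := D.S_sq _ h2
  rw [← map_mul, ← sq, map_eq_one_iff _ (MulAut.conj g).injective] at h3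
  have h4 : w ^ 2 = 1 := h3
  exact absurd (Nat.le_of_dvd two_pos (hw ▸ orderOf_dvd_of_pow_eq_one h4)) (by norm_num)

/-- A product `z y` with `y` of odd order commuting with the involution `z` determines `z`. -/
theorem left_eq_of_mul_eq {z z' y y' : G} (hz : orderOf z = 2) (hz' : orderOf z' = 2)
    (hy : Odd (orderOf y)) (hy' : Odd (orderOf y')) (hc : y * z = z * y) (hc' : y' * z' = z' * y')
    (he : z * y = z' * y') : z = z' := by
  have h : (z * y) ^ (orderOf y * orderOf y') = (z' * y') ^ (orderOf y * orderOf y') := by rw [he]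
  rw [(show Commute z y from hc.symm).mul_pow, (show Commute z' y' from hc'.symm).mul_pow,
    pow_mul y, pow_orderOf_eq_one, one_pow, mul_one, mul_comm (orderOf y), pow_mul y',
    pow_orderOf_eq_one, one_pow, mul_one] at h
  have hone : ∀ w : G, orderOf w = 2 → w ^ (orderOf y' * orderOf y) = w := fun w hw => by
    rw [← pow_mod_orderOf, hw, Nat.odd_iff.1 (hy'.mul hy), pow_one]
  rwa [hone z hz, hone z' hz'] at h

/-- Each involution of `M` gives `2 P` pairs of involutions of `M`, `P` the number of pairs of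
involutions of `PSL₂(q)` with product of odd order. -/
theorem two_mul_oddPairs_le {t : G} (D : Data t F) (ht : orderOf t = 2) {M : Subgroup G}
    (hC : Subgroup.centralizer ({t} : Set G) ≤ M)
    (hconj : ∀ s ∈ M, orderOf s = 2 → ∃ m ∈ M, m * t * m⁻¹ = s) :
    2 * (oddPairs PSL(2, F)).ncard ≤ {s : G | s ∈ M ∧ orderOf s = 2}.ncard := by
  classical
  set I : Set G := {s : G | s ∈ M ∧ orderOf s = 2} with hI
  choose m hmM hm using hconj
  have htt : t * t = 1 := by rw [← sq, ← ht, pow_orderOf_eq_one]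
  have htj : ∀ z, t * D.j z = D.j z * t := fun z =>
    (Subgroup.mem_centralizer_singleton_iff.1 (D.j_mem z)).symm
  have hjM : ∀ z, D.j z ∈ M := fun z => hC (D.j_mem z)
  have htM : t ∈ M := hC (Subgroup.mem_centralizer_singleton_iff.2 rfl)
  have htz : ∀ a : PSL(2, F), orderOf a = 2 → orderOf (t * D.j a) = 2 := fun a ha => by
    have haa : a * a = 1 := by have := pow_orderOf_eq_one a; rwa [ha, sq] at this
    refine orderOf_eq_prime ?_ fun e => D.t_notMem ⟨a, ?_⟩
    · rw [sq, mul_assoc, ← mul_assoc (D.j a), ← htj, mul_assoc t (D.j a), ← map_mul, haa, map_one,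
        mul_one, htt]
    · exact (eq_inv_of_mul_eq_one_right e).trans (inv_eq_of_mul_eq_one_right htt)
  let f : I × (Bool × oddPairs PSL(2, F)) → I × I := fun x =>
    let c := MulAut.conj (m x.1.1 x.1.2.1 x.1.2.2)
    let a := if x.2.1 then t * D.j x.2.2.1.1 else D.j x.2.2.1.1
    let b := if x.2.1 then D.j x.2.2.1.2 else t * D.j x.2.2.1.2
    (⟨c a, by
        refine ⟨mul_mem (mul_mem (hmM _ _ _) ?_) (inv_mem (hmM _ _ _)), ?_⟩
        · dsimp only [a]; split <;> [exact mul_mem htM (hjM _); exact hjM _]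
        · refine (orderOf_injective c.toMonoidHom c.injective a).trans ?_
          dsimp only [a]; split
          · exact htz _ x.2.2.2.1
          · rw [orderOf_injective D.j D.j_inj]; exact x.2.2.2.1⟩,
      ⟨c b, by
        refine ⟨mul_mem (mul_mem (hmM _ _ _) ?_) (inv_mem (hmM _ _ _)), ?_⟩
        · dsimp only [b]; split <;> [exact hjM _; exact mul_mem htM (hjM _)]
        · refine (orderOf_injective c.toMonoidHom c.injective b).trans ?_
          dsimp only [b]; split
          · rw [orderOf_injective D.j D.j_inj]; exact x.2.2.2.2.1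
          · exact htz _ x.2.2.2.2.1⟩)
  have hct : ∀ (z : G) (hzM : z ∈ M) (hz : orderOf z = 2), MulAut.conj (m z hzM hz) t = z :=
    fun z hzM hz => by rw [MulAut.conj_apply, hm]
  have hprod : ∀ x, ((f x).1 : G) * ((f x).2 : G) = (x.1 : G) *
      MulAut.conj (m x.1.1 x.1.2.1 x.1.2.2) (D.j (x.2.2.1.1 * x.2.2.1.2)) := by
    rintro ⟨⟨z, hzM, hz⟩, β, ⟨⟨a, b⟩, hab⟩⟩
    dsimp only [f]
    rw [← map_mul (MulAut.conj (m z hzM hz))]
    have key : (if β = true then t * D.j a else D.j a) * (if β = true then D.j b else t * D.j b) =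
        t * D.j (a * b) := by
      cases β
      · simp only [Bool.false_eq_true, if_false]
        rw [← mul_assoc, ← htj, mul_assoc, ← map_mul]
      · simp only [if_true]
        rw [mul_assoc, ← map_mul]
    rw [key, map_mul, hct z hzM hz]
  have hf : Function.Injective f := by
    rintro ⟨⟨z, hzM, hz⟩, β, ⟨⟨a, b⟩, hab⟩⟩ ⟨⟨z', hzM', hz'⟩, β', ⟨⟨a', b'⟩, hab'⟩⟩ e
    have hp := hprod ⟨⟨z, hzM, hz⟩, β, ⟨⟨a, b⟩, hab⟩⟩
    rw [e, hprod] at hp
    have hodd : ∀ (w : G) (hwM : w ∈ M) (hw : orderOf w = 2) (p : oddPairs PSL(2, F)),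
        Odd (orderOf (MulAut.conj (m w hwM hw) (D.j (p.1.1 * p.1.2)))) ∧
          MulAut.conj (m w hwM hw) (D.j (p.1.1 * p.1.2)) * w =
            w * MulAut.conj (m w hwM hw) (D.j (p.1.1 * p.1.2)) := fun w hwM hw p => by
      constructor
      · rw [show orderOf (MulAut.conj (m w hwM hw) (D.j (p.1.1 * p.1.2))) = orderOf (D.j (p.1.1 * p.1.2))
            from orderOf_injective (MulAut.conj (m w hwM hw)).toMonoidHom
              (MulAut.conj (m w hwM hw)).injective _, orderOf_injective D.j D.j_inj]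
        exact p.2.2.2
      · have h := congrArg (MulAut.conj (m w hwM hw)) (htj (p.1.1 * p.1.2))
        simp only [map_mul, hct w hwM hw] at h ⊢
        exact h.symm
    obtain rfl : z = z' := left_eq_of_mul_eq hz hz' (hodd z hzM hz ⟨_, hab⟩).1
      (hodd z' hzM' hz' ⟨_, hab'⟩).1 (hodd z hzM hz ⟨_, hab⟩).2 (hodd z' hzM' hz' ⟨_, hab'⟩).2 hp.symm
    have e1 := congrArg (fun p : I × I => (p.1 : G)) e
    have e2 := congrArg (fun p : I × I => (p.2 : G)) e
    dsimp only [f] at e1 e2
    have e1' := (MulAut.conj (m z hzM hz)).injective e1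
    have e2' := (MulAut.conj (m z hzM hz)).injective e2
    have hno : ∀ a a' : PSL(2, F), t * D.j a ≠ D.j a' := fun a a' h => D.t_notMem
      ⟨a' * a⁻¹, by rw [map_mul, map_inv, ← h, mul_inv_cancel_right]⟩
    cases β <;> cases β' <;> simp only [Bool.false_eq_true, if_false, if_true] at e1' e2'
    · rw [show (⟨(a, b), hab⟩ : oddPairs PSL(2, F)) = ⟨(a', b'), hab'⟩ from
        Subtype.ext (Prod.ext (D.j_inj e1') (D.j_inj (mul_left_cancel e2')))]
    · exact absurd e1'.symm (hno _ _)
    · exact absurd e1' (hno _ _)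
    · rw [show (⟨(a, b), hab⟩ : oddPairs PSL(2, F)) = ⟨(a', b'), hab'⟩ from
        Subtype.ext (Prod.ext (D.j_inj (mul_left_cancel e1')) (D.j_inj e2'))]
  have hle := Nat.card_le_card_of_injective f hf
  simp only [Nat.card_prod, Nat.card_coe_set_eq, Nat.card_eq_fintype_card (α := Bool),
    Fintype.card_bool] at hle
  refine Nat.le_of_mul_le_mul_left hle ((Set.ncard_pos (Set.toFinite _)).2 ⟨t, htM, ht⟩)

/-- Bender's theorem bounds the involutions of `M` by the order of the centraliser. -/
theorem ncard_involutions_le (hAll : AllConc.{u}) {M : Subgroup G}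
    (hSE : Cfsg.IsStronglyEmbedded M) (hcore : M.normalCore = ⊥) {s t : G} (hs : orderOf s = 2)
    (ht : orderOf t = 2) (hst : s ≠ t) (hc : Commute s t) (htM : t ∈ M) :
    {x : G | x ∈ M ∧ orderOf x = 2}.ncard ≤ Nat.card (Subgroup.centralizer ({t} : Set G)) := by
  classical
  have hS := Assembly.setting_coset hSE hcore
  have hall : ∀ x : G ⧸ M, x ∈ apexSet (⊤ : Subgroup G) := fun x => by
    obtain ⟨r, hr, hrx⟩ := H50.se_exists_fixer hSE x
    exact ⟨r, Subgroup.mem_top _, hr, hrx⟩
  set a : G ⧸ M := ((1 : G) : G ⧸ M) with ha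
  obtain ⟨b, hba⟩ := Assembly.exists_ne hSE a
  have hR : Rich (G ⧸ M) (⊤ : Subgroup G) :=
    ⟨⟨s, Subgroup.mem_top _, t, Subgroup.mem_top _, hs, ht, hst, hc⟩, b, hall b, a, hall a, hba⟩
  obtain ⟨hJ, -⟩ := hAll G (G ⧸ M) hS hR
  have hfix : ∀ x : G, x ∈ M → x • a = a := fun x hx => H50.smul_one_coset_eq_iff.2 hx
  obtain ⟨v, -, hv⟩ := hall b
  have horb : ∀ x ∈ M, x • b ∈ Set.range fun c : Subgroup.centralizer ({t} : Set G) => (c : G) • b := by
    intro x hx
    have h1 : InvAt (x⁻¹ * t * x) a := by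
      refine ⟨?_, hfix _ (mul_mem (mul_mem (inv_mem hx) htM) hx)⟩
      rw [← ht]
      simpa using orderOf_injective (MulAut.conj x⁻¹).toMonoidHom (MulAut.conj x⁻¹).injective t
    obtain ⟨g, hg, hgt⟩ := Final.exists_conj_pair hS (M := ⊤) hba.symm (Subgroup.mem_top t)
      (Subgroup.mem_top (x⁻¹ * t * x)) (Subgroup.mem_top v) ⟨ht, hfix t htM⟩ h1 hv
    refine ⟨⟨x * g, ?_⟩, ?_⟩
    · rw [Subgroup.mem_centralizer_singleton_iff]
      calc x * g * t = x * (g * t * g⁻¹) * g := by group
        _ = x * (x⁻¹ * t * x) * g := by rw [hgt]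
        _ = t * (x * g) := by group
    · show (x * g) • b = x • b
      rw [mul_smul, (mem_pairStab.1 hg.2).2]
  calc {x : G | x ∈ M ∧ orderOf x = 2}.ncard
      ≤ (Set.range fun c : Subgroup.centralizer ({t} : Set G) => (c : G) • b).ncard := by
        refine Set.ncard_le_ncard_of_injOn (fun x => x • b) (fun x hx => horb x hx.1) ?_
          (Set.toFinite _)
        intro x hx y hy hxy
        have hxx : x * x = 1 := by have := pow_orderOf_eq_one x; rwa [hx.2, sq] at this
        have hyy : y * y = 1 := by have := pow_orderOf_eq_one y; rwa [hy.2, sq] at this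
        have h1 : x * y = 1 := by
          refine hJ x a b ⟨hx.2, hfix x hx.1⟩ hba _ ⟨hfix _ (mul_mem hx.1 hy.1), ?_, ?_⟩
          · have hxy' : x • b = y • b := hxy
            rw [mul_smul, ← hxy', ← mul_smul, hxx, one_smul]
          · rw [_root_.mul_inv_rev, inv_eq_of_mul_eq_one_right hxx, inv_eq_of_mul_eq_one_right hyy,
              ← mul_assoc, hxx, one_mul]
        calc x = x * (y * y) := by rw [hyy, mul_one]
          _ = y := by rw [← mul_assoc, h1, one_mul]
    _ ≤ Nat.card (Subgroup.centralizer ({t} : Set G)) := by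
        rw [← Nat.card_coe_set_eq]
        exact Nat.card_le_card_of_surjective _ Set.rangeFactorization_surjective

end Cfsg.Agent.H23.S1245
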