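import Cfsg.Agent.H69.PSL2Elements
import Cfsg.Agent.H6.Four

/-!
# Odd elements of centralisers in `PSL₂(q)`
-/

set_option autoImplicit false

open Matrix MatrixGroups

namespace Cfsg.Agent.H23.S1245

variable {F : Type*} [Field F] [Fintype F]

local notation "SL₂" => Matrix.SpecialLinearGroup (Fin 2) F
local notation "M₂" => Matrix (Fin 2) (Fin 2) F

theorem neg_one_ne_one (h2 : (2 : F) ≠ 0) (g : SL₂) : -g ≠ g := H69.sl2_neg_ne_self h2 g

/-- An odd-order element commuting with a coset of scalars has a lift commuting with any lift. -/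
theorem exists_lift_commute (h2 : (2 : F) ≠ 0) {a z : PSL(2, F)} (ha : Odd (orderOf a))
    (hc : a * z = z * a) {g : SL₂} (hg : H6.π g = z) :
    ∃ A ∈ Subgroup.centralizer ({g} : Set SL₂), H6.π A = a := by
  obtain ⟨A, hA⟩ := H6.π_surjective a
  have hcase : A * g * A⁻¹ = g ∨ A * g * A⁻¹ = -g := by
    rw [← H6.π_eq_iff, map_mul, map_mul, map_inv, hA, hg, hc, mul_inv_cancel_right]
  refine ⟨A, Subgroup.mem_centralizer_singleton_iff.2 ?_, hA⟩
  rcases hcase with h | h
  · exact mul_inv_eq_iff_eq_mul.1 h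
  exfalso
  have hneg : ∀ m : ℕ, Odd m → A ^ m * g * (A ^ m)⁻¹ = -g := by
    rintro _ ⟨k, rfl⟩
    induction k with
    | zero => simpa using h
    | succ k ih =>
      have hstep : A * (-g) * A⁻¹ = g := by
        rw [mul_neg, neg_mul, h, neg_neg]
      calc A ^ (2 * (k + 1) + 1) * g * (A ^ (2 * (k + 1) + 1))⁻¹
          = A * (A * (A ^ (2 * k + 1) * g * (A ^ (2 * k + 1))⁻¹) * A⁻¹) * A⁻¹ := by
            rw [show 2 * (k + 1) + 1 = (2 * k + 1) + 1 + 1 by ring, pow_succ', pow_succ']
            simp [mul_assoc]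
        _ = A * (A * (-g) * A⁻¹) * A⁻¹ := by rw [ih]
        _ = -g := by rw [hstep, h]
  have hpow : H6.π (A ^ orderOf a) = 1 := by rw [map_pow, hA, pow_orderOf_eq_one]
  have := hneg _ ha
  rcases H6.π_eq_one_iff.1 hpow with e | e <;> rw [e] at this
  · exact neg_one_ne_one h2 g (by simpa using this.symm)
  · exact neg_one_ne_one h2 g (by simpa using this.symm)

/-- Two elements of odd order commuting with a nontrivial element commute. -/
theorem commute_of_common (h2 : (2 : F) ≠ 0) {a b z : PSL(2, F)} (hz : z ≠ 1)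
    (ha : Odd (orderOf a)) (hb : Odd (orderOf b)) (hza : a * z = z * a) (hzb : b * z = z * b) :
    a * b = b * a := by
  obtain ⟨g, hg⟩ := H6.π_surjective z
  have hns : ¬ H69.IsScalar2 (g : M₂) := by
    intro hs
    apply hz
    rw [← hg, H6.π_eq_one_iff]
    exact (H69.sl2_mem_center_iff_eq _).1 ((H69.sl2_mem_center_iff _).2 hs)
  obtain ⟨A, hA, rfl⟩ := exists_lift_commute h2 ha hza hg
  obtain ⟨B, hB, rfl⟩ := exists_lift_commute h2 hb hzb hg
  obtain ⟨c, d, -, hcd⟩ := H69.exists_coeff_of_mem_centralizer hns hA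
  have hgB : (g : M₂) * (B : M₂) = (B : M₂) * (g : M₂) := by
    have := congrArg (fun w : SL₂ => (w : M₂)) (Subgroup.mem_centralizer_singleton_iff.1 hB)
    simpa using this.symm
  have hAB : A * B = B * A := by
    apply Subtype.ext
    show (A : M₂) * (B : M₂) = (B : M₂) * (A : M₂)
    rw [hcd]
    simp only [mul_add, add_mul, mul_smul_comm, smul_mul_assoc, mul_one, one_mul, hgB]
  rw [← map_mul, hAB, map_mul]

/-- The odd-order elements commuting with an involution lie in a cyclic group. -/
theorem exists_cyclic_of_commute_involution (h2 : (2 : F) ≠ 0) {v : PSL(2, F)}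
    (hv : orderOf v = 2) :
    ∃ T : Subgroup PSL(2, F), IsCyclic T ∧
      ∀ a : PSL(2, F), Odd (orderOf a) → a * v = v * a → a ∈ T := by
  obtain ⟨g, hg⟩ := H6.π_surjective v
  have hns : ¬ H69.IsScalar2 (g : M₂) := by
    intro hs
    have : v = 1 := by
      rw [← hg, H6.π_eq_one_iff]
      exact (H69.sl2_mem_center_iff_eq _).1 ((H69.sl2_mem_center_iff _).2 hs)
    rw [this, orderOf_one] at hv
    norm_num at hv
  have hgg : g * g = -1 := by
    have h1 : H6.π (g * g) = 1 := by
      have := pow_orderOf_eq_one v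
      rw [hv] at this
      rw [map_mul, hg, ← sq, this]
    rcases H6.π_eq_one_iff.1 h1 with h | h
    · exfalso
      rcases H69.sl2_eq_one_or_neg_one_of_sq h2 h with e | e <;>
        exact hns ((H69.sl2_mem_center_iff _).1 ((H69.sl2_mem_center_iff_eq _).2 (by simp [e])))
    · exact h
  have ht : (g : M₂).trace ^ 2 ≠ 4 := by
    have hd := g.2
    have e := congrArg (fun w : SL₂ => (w : M₂)) hgg
    have e01 := congrFun (congrFun e 0) 1
    have e10 := congrFun (congrFun e 1) 0
    have e00 := congrFun (congrFun e 0) 0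
    simp [Matrix.mul_apply, Fin.sum_univ_two] at e01 e10 e00
    rw [Matrix.det_fin_two] at hd
    have ht0 : (g : M₂).trace = 0 := by
      rw [Matrix.trace_fin_two]
      by_contra hne
      have h01 : (g : M₂) 0 1 = 0 := by
        have : (g : M₂) 0 1 * ((g : M₂) 0 0 + (g : M₂) 1 1) = 0 := by linear_combination e01
        exact (mul_eq_zero.1 this).resolve_right hne
      have h00 : (g : M₂) 0 0 * ((g : M₂) 0 0 + (g : M₂) 1 1) = 0 := by
        rw [h01] at e00 hd
        linear_combination e00 + hd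
      have : (g : M₂) 0 0 = 0 := (mul_eq_zero.1 h00).resolve_right hne
      rw [this, h01] at hd
      simp at hd
    rw [ht0]
    intro h
    exact mul_ne_zero h2 h2 (by linear_combination -h)
  haveI := H69.isCyclic_centralizer hns ht
  let f := (H6.π : SL₂ →* PSL(2, F)).subgroupMap (Subgroup.centralizer ({g} : Set SL₂))
  refine ⟨(Subgroup.centralizer ({g} : Set SL₂)).map H6.π,
    isCyclic_of_surjective f (MonoidHom.subgroupMap_surjective _ _), fun a ha hc => ?_⟩
  obtain ⟨A, hA, rfl⟩ := exists_lift_commute h2 ha hc hg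
  exact Subgroup.mem_map_of_mem _ hA

/-- An element of odd order commuting with `a` commutes with each involution commuting with `a`. -/
theorem commute_involution_of_common (h2 : (2 : F) ≠ 0) {v a b : PSL(2, F)} (ha1 : a ≠ 1)
    (ha : Odd (orderOf a)) (hb : Odd (orderOf b)) (hav : a * v = v * a) (hba : b * a = a * b) :
    b * v = v * b := by
  obtain ⟨g, hg⟩ := H6.π_surjective v
  obtain ⟨A, hA, hAa⟩ := exists_lift_commute h2 ha hav hg
  have hns : ¬ H69.IsScalar2 (A : M₂) := by
    intro hs
    apply ha1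
    rw [← hAa, H6.π_eq_one_iff]
    exact (H69.sl2_mem_center_iff_eq _).1 ((H69.sl2_mem_center_iff _).2 hs)
  obtain ⟨B, hB, hBb⟩ := exists_lift_commute h2 hb hba hAa
  obtain ⟨c, d, -, hcd⟩ := H69.exists_coeff_of_mem_centralizer hns hB
  have hgA : (g : M₂) * (A : M₂) = (A : M₂) * (g : M₂) := by
    have := congrArg (fun w : SL₂ => (w : M₂)) (Subgroup.mem_centralizer_singleton_iff.1 hA)
    simpa using this.symm
  have hBg : B * g = g * B := by
    apply Subtype.ext
    show (B : M₂) * (g : M₂) = (g : M₂) * (B : M₂)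
    rw [hcd]
    simp only [mul_add, add_mul, mul_smul_comm, smul_mul_assoc, mul_one, one_mul, hgA]
  rw [← hBb, ← hg, ← map_mul, hBg, map_mul]

end Cfsg.Agent.H23.S1245
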