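import Cfsg.Agent.H23.S1245.Basic
import Cfsg.Agent.H23.S1245.Tori
import Cfsg.Agent.H28.ZStar
import Cfsg.Agent.H19.Cores

/-!
# An overgroup of `C(t)` in which `t` is isolated is `C(t)`
-/

set_option autoImplicit false
set_option linter.style.haveILetI false

open Matrix MatrixGroups

namespace Cfsg.Agent.H23.S1245

open Cfsg.Agent.H77.JankoRee

variable {G : Type*} [Group G] [Finite G] {F : Type*} [Field F] [Fintype F]

theorem mem_of_sq_mem {X : Type*} [Group X] {H : Subgroup X} {a : X} (ha : Odd (orderOf a))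
    (h : a * a ∈ H) : a ∈ H := by
  obtain ⟨k, hk⟩ := ha
  have e : a = (a * a) ^ (k + 1) := by
    rw [← pow_two, ← pow_mul, show 2 * (k + 1) = orderOf a + 1 by omega, pow_succ, pow_orderOf_eq_one, one_mul]
  rw [e]
  exact pow_mem h _

theorem eq_one_of_sq {X : Type*} [Group X] {a : X} (ha : Odd (orderOf a)) (h : a * a = 1) :
    a = 1 :=
  Subgroup.mem_bot.1 (mem_of_sq_mem ha (Subgroup.mem_bot.2 h))

/-- In a simple group `t` is not isolated. -/
theorem notIsolated [IsSimpleGroup G] (hna : ¬ IsMulCommutative G) {t : G} (ht : orderOf t = 2) :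
    ∃ g : G, Commute t (g * t * g⁻¹) ∧ g * t * g⁻¹ ≠ t := by
  by_contra hc
  push Not at hc
  have ht1 : t ≠ 1 := fun h => by simp [h] at ht
  have hiso : H28.IsIsolatedInvolution t := ⟨ht, hc⟩
  haveI := H19.pPrimeCore_normal 2 G
  have hO : Cfsg.pPrimeCore 2 G = ⊥ := by
    rcases Subgroup.Normal.eq_bot_or_eq_top (inferInstance : (Cfsg.pPrimeCore 2 G).Normal) with h | h
    · exact h
    exfalso
    have h1 := H19.pPrimeCore_coprime (G := G) 2
    rw [h, Subgroup.card_top] at h1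
    have h2 : 2 ∣ Nat.card G := ht ▸ orderOf_dvd_natCard t
    have := Nat.odd_iff.1 (Nat.coprime_two_right.1 h1)
    omega
  have hcen : t ∈ Subgroup.center G := Subgroup.mem_center_iff.2 fun g => by
    have := H28.zStar hiso g
    rw [hO, Subgroup.mem_bot, mul_inv_eq_one, mul_inv_eq_iff_eq_mul] at this
    exact this.symm
  rcases Subgroup.Normal.eq_bot_or_eq_top (inferInstance : (Subgroup.center G).Normal) with h | h
  · exact ht1 (Subgroup.mem_bot.1 (h ▸ hcen))
  · exact hna ⟨⟨fun a b => (Subgroup.mem_center_iff.1 (h ▸ Subgroup.mem_top b : b ∈ Subgroup.center G)) a⟩⟩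

/-- Every involution of the Sylow subgroup is conjugate to `t` in its normaliser. -/
theorem exists_conj_normalizer [IsSimpleGroup G] (hna : ¬ IsMulCommutative G) {t : G}
    (ht : orderOf t = 2) (D : Data t F) {s : G} (hs : s ∈ (D.S : Subgroup G)) (hs1 : s ≠ 1) :
    ∃ n ∈ Subgroup.normalizer ((D.S : Subgroup G) : Set G), n * t * n⁻¹ = s := by
  haveI : Fact (Nat.Prime 2) := ⟨Nat.prime_two⟩
  obtain ⟨g, hg1, hg2⟩ := notIsolated hna ht
  obtain ⟨m, -, hm⟩ := fusion_full D ht (M := ⊤) le_top (Subgroup.mem_top g) hg1 hg2 s hs hs1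
  haveI : IsMulCommutative (D.S : Subgroup G) :=
    ⟨⟨fun a b => Subtype.ext (S_comm D a.2 b.2)⟩⟩
  obtain ⟨n, hn, he⟩ := Sylow.conj_eq_normalizer_conj_of_mem D.S t m⁻¹ D.t_mem
    (by rw [inv_inv, hm]; exact hs)
  refine ⟨n⁻¹, inv_mem hn, ?_⟩
  rw [inv_inv] at he ⊢
  rw [← he, hm]

/-- An element of odd order of `C(t)` inverted by an element of the Sylow subgroup lies in
`PSL₂(q)`. -/
theorem mem_range_of_inverted {t : G} (D : Data t F) {a : G}
    (haC : a ∈ Subgroup.centralizer ({t} : Set G)) (ha : Odd (orderOf a)) {e : G}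
    (he : e ∈ (D.S : Subgroup G)) (hinv : e * a * e⁻¹ = a⁻¹) :
    ∃ b w : PSL(2, F), a = D.j b ∧ w ∈ D.V ∧ w * b * w⁻¹ = b⁻¹ ∧ Odd (orderOf b) ∧
      (e = D.j w ∨ e = t * D.j w) := by
  obtain ⟨w, hw, hew⟩ := (D.S_cases e).1 he
  have hwa : D.j w * a * (D.j w)⁻¹ = a⁻¹ := by
    rcases hew with rfl | rfl
    · exact hinv
    · have hm : D.j w * a * (D.j w)⁻¹ ∈ Subgroup.centralizer ({t} : Set G) :=
        mul_mem (mul_mem (D.j_mem w) haC) (inv_mem (D.j_mem w))
      rw [← hinv]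
      calc D.j w * a * (D.j w)⁻¹ = D.j w * a * (D.j w)⁻¹ * t * t⁻¹ := by group
        _ = t * (D.j w * a * (D.j w)⁻¹) * t⁻¹ := by rw [Subgroup.mem_centralizer_singleton_iff.1 hm]
        _ = t * D.j w * a * (t * D.j w)⁻¹ := by group
  have hsq : a * a ∈ D.j.range := by
    have hinv' : D.j w * a⁻¹ * (D.j w)⁻¹ = a := by rw [← conj_inv, hwa, inv_inv]
    have e1 : a * a = (a * D.j w * a⁻¹) * (D.j w)⁻¹ := by
      calc a * a = a * (D.j w * a⁻¹ * (D.j w)⁻¹) := by rw [hinv']
        _ = _ := by group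
    rw [e1]
    exact mul_mem (D.conj_mem a haC w) (inv_mem ⟨w, rfl⟩)
  obtain ⟨b, rfl⟩ := mem_of_sq_mem ha hsq
  refine ⟨b, w, rfl, hw, D.j_inj (by simpa using hwa), ?_, hew⟩
  rwa [orderOf_injective D.j D.j_inj] at ha

theorem mem_four_cases {t : G} (D : Data t F) {u v : PSL(2, F)} (hu : u ∈ D.V) (hu1 : u ≠ 1)
    (hv : v ∈ D.V) (hv1 : v ≠ 1) : ∃ i : ℕ, D.x ^ i * u * (D.x ^ i)⁻¹ = v := by
  classical
  have hmem : ∀ i : ℕ, D.x ^ i * u * (D.x ^ i)⁻¹ ∈ D.V := fun i =>
    (Subgroup.mem_normalizer_iff.1 (pow_mem D.x_norm i) u).1 hu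
  by_contra hc
  push Not at hc
  set a := D.x * u * D.x⁻¹ with ha
  set b := D.x * a * D.x⁻¹ with hb
  have haV : a ∈ D.V := by simpa [ha] using hmem 1
  have hbV : b ∈ D.V := by
    have := hmem 2
    simpa [ha, hb, pow_two, mul_assoc] using this
  have hua : a ≠ u := fun e => hu1 (D.x_fix u hu e)
  have hab : b ≠ a := fun e => hua (mul_left_cancel (mul_right_cancel e))
  have hub : b ≠ u := by
    intro e
    apply hua
    have h3 : D.x * b * D.x⁻¹ = u := by
      have h : D.x ^ 3 = 1 := D.x_order ▸ pow_orderOf_eq_one D.x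
      calc D.x * b * D.x⁻¹ = D.x ^ 3 * u * (D.x ^ 3)⁻¹ := by simp [ha, hb, pow_succ, mul_assoc]
        _ = u := by rw [h]; simp
    rw [e] at h3
    exact h3
  have hva : v ≠ a := fun e => hc 1 (by simpa [ha] using e.symm)
  have hvb : v ≠ b := fun e => hc 2 (by simpa [ha, hb, pow_two, mul_assoc] using e.symm)
  have hvu : v ≠ u := fun e => hc 0 (by simpa using e.symm)
  have ha1 : a ≠ 1 := by simpa [ha] using hu1
  have hb1 : b ≠ 1 := by simpa [hb] using ha1
  have hsub : (({1, u, a, b, v} : Finset PSL(2, F)) : Set PSL(2, F)) ⊆ (D.V : Set PSL(2, F)) := by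
    intro z hz
    simp only [Finset.coe_insert, Finset.coe_singleton, Set.mem_insert_iff, Set.mem_singleton_iff] at hz
    rcases hz with rfl | rfl | rfl | rfl | rfl
    exacts [one_mem _, hu, haV, hbV, hv]
  have := Set.ncard_le_ncard hsub
  rw [Set.ncard_coe_finset, ← Nat.card_coe_set_eq] at this
  change _ ≤ Nat.card D.V at this
  rw [D.four.card_four, Finset.card_insert_of_notMem (by simp [hu1.symm, ha1.symm, hb1.symm, hv1.symm]),
    Finset.card_insert_of_notMem (by simp [hua.symm, hub.symm, hvu.symm]),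
    Finset.card_insert_of_notMem (by simp [hab.symm, hva.symm]),
    Finset.card_insert_of_notMem (by simp [hvb.symm]), Finset.card_singleton] at this
  omega

/-- If `t` is isolated in a subgroup containing its centraliser, that subgroup centralises `t`. -/
theorem le_centralizer_of_isolated [IsSimpleGroup G] (hna : ¬ IsMulCommutative G) {t : G}
    (ht : orderOf t = 2) (D : Data t F) (h2 : (2 : F) ≠ 0) {M : Subgroup G}
    (hC : Subgroup.centralizer ({t} : Set G) ≤ M)
    (hiso : ∀ m ∈ M, Commute t (m * t * m⁻¹) → m * t * m⁻¹ = t) :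
    M ≤ Subgroup.centralizer ({t} : Set G) := by
  classical
  haveI : Fact (Nat.Prime 2) := ⟨Nat.prime_two⟩
  have ht1 : t ≠ 1 := fun h => by simp [h] at ht
  have htt : t * t = 1 := by rw [← sq, ← ht]; exact pow_orderOf_eq_one t
  have htM : t ∈ M := hC (S_le_centralizer D D.t_mem)
  have hSM : (D.S : Subgroup G) ≤ M := (S_le_centralizer D).trans hC
  haveI := D.four
  have hvv : ∀ v ∈ D.V, v * v = 1 := fun v hv => by
    simpa using congrArg Subtype.val (IsKleinFour.mul_self (G := D.V) (⟨v, hv⟩ : D.V))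
  haveI := H19.pPrimeCore_normal 2 M
  set O : Subgroup G := (Cfsg.pPrimeCore 2 M).map M.subtype with hOdef
  have hOodd : ∀ o ∈ O, Odd (orderOf o) := by
    rintro _ ⟨o, ho, rfl⟩
    show Odd (orderOf ((o : M) : G))
    rw [Subgroup.orderOf_coe]
    exact (Nat.coprime_two_right.1 (H19.pPrimeCore_coprime 2)).of_dvd_nat
      (Subgroup.orderOf_dvd_natCard _ ho)
  have hOM : O ≤ M := Subgroup.map_subtype_le _
  have hOnorm : ∀ m ∈ M, ∀ o ∈ O, m * o * m⁻¹ ∈ O := by
    rintro m hm _ ⟨o, ho, rfl⟩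
    exact ⟨⟨m, hm⟩ * o * ⟨m, hm⟩⁻¹,
      (inferInstance : (Cfsg.pPrimeCore 2 M).Normal).conj_mem o ho ⟨m, hm⟩, rfl⟩
  suffices hO : O = ⊥ by
    intro m hm
    rw [Subgroup.mem_centralizer_singleton_iff]
    have hiso' : H28.IsIsolatedInvolution (⟨t, htM⟩ : M) :=
      ⟨by rw [Subgroup.orderOf_mk, ht], fun g hg => Subtype.ext (hiso g g.2 (congrArg Subtype.val hg.eq))⟩
    have h := H28.zStar hiso' ⟨m, hm⟩
    have hbot : Cfsg.pPrimeCore 2 M = ⊥ := by
      rwa [hOdef, Subgroup.map_eq_bot_iff_of_injective _ M.subtype_injective] at hO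
    rw [hbot, Subgroup.mem_bot, mul_inv_eq_one, mul_inv_eq_iff_eq_mul] at h
    exact (congrArg Subtype.val h).symm
  -- `t` has no fixed point on the core
  have hfix : ∀ o ∈ O, o * t = t * o → o = 1 := by
    intro o ho hot
    have hoC : o ∈ Subgroup.centralizer ({t} : Set G) := Subgroup.mem_centralizer_singleton_iff.2 hot
    have hodd := hOodd o ho
    have key : ∀ o' ∈ O, o' ∈ D.j.range → o' = 1 := by
      rintro _ ho' ⟨b, rfl⟩
      -- the odd part of the core inside `PSL₂(q)` is normal there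
      let K : Subgroup PSL(2, F) := O.comap D.j
      have hK : ∀ k ∈ K, ∀ z, z * k * z⁻¹ ∈ K := fun k hk z => by
        show D.j (z * k * z⁻¹) ∈ O
        rw [map_mul, map_mul, map_inv]
        exact hOnorm _ (hC (D.j_mem z)) _ hk
      have hKodd : ∀ k ∈ K, Odd (orderOf k) := fun k hk => by
        have := hOodd _ hk
        rwa [orderOf_injective D.j D.j_inj] at this
      haveI : K.Normal := ⟨fun k hk z => hK k hk z⟩
      by_cases hVn : D.V.Normal
      · haveI := hVn
        have hb : b ∈ Subgroup.centralizer (D.V : Set PSL(2, F)) := by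
          rw [Subgroup.mem_centralizer_iff]
          intro v hv
          have h1 : v * b * v⁻¹ * b⁻¹ ∈ K := mul_mem (hK b ho' v) (inv_mem ho')
          have h2' : v * b * v⁻¹ * b⁻¹ ∈ D.V := by
            rw [mul_assoc, mul_assoc, ← mul_assoc b]
            exact mul_mem hv (hVn.conj_mem _ (inv_mem hv) b)
          have h3 : v * b * v⁻¹ * b⁻¹ = 1 :=
            eq_one_of_sq (hKodd _ h1) (hvv _ h2')
          rwa [mul_inv_eq_one, mul_inv_eq_iff_eq_mul] at h3
        have hbV := H6.centralizer_four_le h2 D.four hb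
        rw [eq_one_of_sq (hKodd b ho') (hvv b hbV), map_one]
      · have hq : 3 < Fintype.card F := by
          by_contra hq
          apply hVn
          rw [← Subgroup.normalizer_eq_top_iff]
          refine Subgroup.eq_top_of_le_card _ ?_
          rw [H6.card_normalizer_four_three h2 rfl D.q8 D.four]
          have h := H6.card_psl2_odd h2 (F := F) rfl
          have : Fintype.card F = 3 := by
            rcases D.q8 with h | h <;> omega
          rw [this] at h
          omega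
        obtain ⟨a, ha⟩ : ∃ a : F, a ∉ ({0, 1, -1} : Finset F) := by
          by_contra! h
          have := Finset.card_le_card (fun a _ => h a : (Finset.univ : Finset F) ⊆ {0, 1, -1})
          rw [Finset.card_univ] at this
          have := Finset.card_le_three (a := (0 : F)) (b := 1) (c := -1)
          omega
        simp only [Finset.mem_insert, Finset.mem_singleton, not_or] at ha
        have hsq : a ^ 2 ≠ 1 := fun h => by
          rcases sq_eq_one_iff.1 h with h | h
          exacts [ha.2.1 h, ha.2.2 h]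
        haveI : IsSimpleGroup PSL(2, F) := H1.isSimpleGroup_PSL (Or.inr ⟨a, ha.1, hsq⟩)
        rcases Subgroup.Normal.eq_bot_or_eq_top (inferInstance : K.Normal) with h | h
        · rw [Subgroup.mem_bot.1 (h ▸ ho' : b ∈ (⊥ : Subgroup PSL(2, F))), map_one]
        · exfalso
          have := hKodd D.x (h ▸ Subgroup.mem_top _)
          obtain ⟨v, hv, hv1⟩ : ∃ v ∈ D.V, v ≠ 1 := by
            by_contra hall
            push Not at hall
            have := Subgroup.card_le_of_le (show D.V ≤ ⊥ from fun v hv => Subgroup.mem_bot.2 (hall v hv))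
            rw [D.four.card_four, Subgroup.card_bot] at this
            omega
          exact hv1 (eq_one_of_sq (hKodd v (h ▸ Subgroup.mem_top _)) (hvv v hv))
    have hcomm : ∀ z, o * D.j z = D.j z * o := by
      intro z
      have h1 : o * D.j z * o⁻¹ * (D.j z)⁻¹ ∈ O := by
        rw [mul_assoc, mul_assoc, ← mul_assoc (D.j z)]
        exact mul_mem ho (hOnorm _ (hC (D.j_mem z)) _ (inv_mem ho))
      have h2' : o * D.j z * o⁻¹ * (D.j z)⁻¹ ∈ D.j.range :=
        mul_mem (D.conj_mem o hoC z) (inv_mem ⟨z, rfl⟩)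
      have := key _ h1 h2'
      rwa [mul_inv_eq_one, mul_inv_eq_iff_eq_mul] at this
    rcases D.cent_eq o hoC hcomm with h | h
    · exact h
    · rw [h]; exact absurd (eq_one_of_sq (h ▸ hodd) htt) ht1
  -- so `t` inverts the core
  have hinvO : ∀ o ∈ O, t * o * t⁻¹ = o⁻¹ := by
    let φ : ↥O →* ↥O :=
      { toFun := fun o => ⟨t * o * t⁻¹, hOnorm t htM o o.2⟩
        map_one' := Subtype.ext (by simp)
        map_mul' := fun a b => Subtype.ext (by simp [mul_assoc]) }
    have hfpf : MonoidHom.FixedPointFree φ := fun o ho => Subtype.ext (hfix o o.2 (by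
      have e : t * (o : G) * t⁻¹ = o := congrArg Subtype.val ho
      exact (mul_inv_eq_iff_eq_mul.1 e).symm))
    have hinvol : Function.Involutive φ := fun o => Subtype.ext (by
      show t * (t * (o : G) * t⁻¹) * t⁻¹ = o
      rw [inv_eq_of_mul_eq_one_right htt, ← mul_assoc, ← mul_assoc, htt, one_mul, mul_assoc, htt, mul_one])
    intro o ho
    exact congrArg Subtype.val (congrFun (hfpf.coe_eq_inv_of_involutive hinvol) ⟨o, ho⟩)
  have hOcomm : ∀ a ∈ O, ∀ b ∈ O, a * b = b * a := by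
    intro a ha b hb
    have h := hinvO (a * b) (mul_mem ha hb)
    have h' : t * (a * b) * t⁻¹ = (t * a * t⁻¹) * (t * b * t⁻¹) := by group
    rw [h', hinvO a ha, hinvO b hb, ← _root_.mul_inv_rev, _root_.inv_inj] at h
    exact h.symm
  by_contra hO
  obtain ⟨l, hl, hlO⟩ := Nat.exists_prime_and_dvd (n := Nat.card O)
    (fun h => hO (Subgroup.card_eq_one.1 h))
  haveI : Fact l.Prime := ⟨hl⟩
  obtain ⟨⟨o₀, ho₀⟩, ho₀l⟩ := exists_prime_orderOf_dvd_card' (G := O) l hlO
  rw [Subgroup.orderOf_mk] at ho₀l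
  have hjS : ∀ v ∈ D.V, D.j v ∈ (D.S : Subgroup G) := fun v hv => (D.S_cases _).2 ⟨v, hv, Or.inl rfl⟩
  -- an element of order `l` centralised by an involution of the four group
  obtain ⟨v, hv, hv1, o, hoO, hol, hov⟩ : ∃ v ∈ D.V, v ≠ 1 ∧ ∃ o ∈ O, orderOf o = l ∧
      D.j v * o * (D.j v)⁻¹ = o := by
    have hex : ∃ v ∈ D.V, v ≠ 1 ∧ o₀ * (D.j v * o₀ * (D.j v)⁻¹) ≠ 1 := by
      by_contra hall
      push Not at hall
      obtain ⟨v, hv, hv1⟩ : ∃ v ∈ D.V, v ≠ 1 := by
        by_contra hc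
        push Not at hc
        have := Subgroup.card_le_of_le (show D.V ≤ ⊥ from fun v hv => Subgroup.mem_bot.2 (hc v hv))
        rw [D.four.card_four, Subgroup.card_bot] at this
        omega
      have hw : D.x * v * D.x⁻¹ ∈ D.V := (Subgroup.mem_normalizer_iff.1 D.x_norm v).1 hv
      have hne : v * (D.x * v * D.x⁻¹) ≠ 1 := fun e => hv1 (D.x_fix v hv (by
        rw [eq_comm, ← inv_eq_of_mul_eq_one_right e, inv_eq_of_mul_eq_one_right (hvv v hv)]))
      have h1 : D.j v * o₀ * (D.j v)⁻¹ = o₀⁻¹ := (inv_eq_of_mul_eq_one_right (hall v hv hv1)).symm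
      have h2' : D.j (D.x * v * D.x⁻¹) * o₀ * (D.j (D.x * v * D.x⁻¹))⁻¹ = o₀⁻¹ :=
        (inv_eq_of_mul_eq_one_right (hall _ hw (by simpa using hv1))).symm
      have h3 := hall _ (mul_mem hv hw) hne
      have e : D.j (v * (D.x * v * D.x⁻¹)) * o₀ * (D.j (v * (D.x * v * D.x⁻¹)))⁻¹ = o₀ := by
        calc D.j (v * (D.x * v * D.x⁻¹)) * o₀ * (D.j (v * (D.x * v * D.x⁻¹)))⁻¹
            = D.j v * (D.j (D.x * v * D.x⁻¹) * o₀ * (D.j (D.x * v * D.x⁻¹))⁻¹) * (D.j v)⁻¹ := by
              rw [map_mul]; group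
          _ = o₀ := by rw [h2', ← conj_inv, h1, inv_inv]
      rw [e] at h3
      have := eq_one_of_sq (hOodd o₀ ho₀) h3
      rw [this, orderOf_one] at ho₀l
      exact hl.ne_one ho₀l.symm
    obtain ⟨v, hv, hv1, hne⟩ := hex
    have hc : D.j v * o₀ * (D.j v)⁻¹ ∈ O := hOnorm _ (hC (D.j_mem v)) _ ho₀
    have hjj : D.j v * D.j v = 1 := by rw [← map_mul, hvv v hv, map_one]
    refine ⟨v, hv, hv1, _, mul_mem ho₀ hc, orderOf_eq_prime ?_ hne, ?_⟩
    · rw [(show Commute o₀ _ from hOcomm _ ho₀ _ hc).mul_pow, conj_pow, ← ho₀l, pow_orderOf_eq_one]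
      simp
    · calc D.j v * (o₀ * (D.j v * o₀ * (D.j v)⁻¹)) * (D.j v)⁻¹
          = (D.j v * o₀ * (D.j v)⁻¹) * ((D.j v * D.j v) * o₀ * (D.j v * D.j v)⁻¹) := by group
        _ = (D.j v * o₀ * (D.j v)⁻¹) * o₀ := by rw [hjj]; simp
        _ = _ := (hOcomm _ ho₀ _ hc).symm
  -- transport to the centraliser of `t`
  have hjv1 : D.j v ≠ 1 := fun e => hv1 (D.j_inj (by rw [e, map_one]))
  obtain ⟨n, hn, hnt⟩ := exists_conj_normalizer hna ht D (hjS v hv) hjv1
  have htr : ∀ g : G, g * D.j v = D.j v * g →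
      n⁻¹ * g * n ∈ Subgroup.centralizer ({t} : Set G) := by
    intro g hg
    rw [Subgroup.mem_centralizer_singleton_iff]
    calc n⁻¹ * g * n * t = n⁻¹ * (g * (n * t * n⁻¹)) * n := by group
      _ = n⁻¹ * ((n * t * n⁻¹) * g) * n := by rw [hnt, hg]
      _ = t * (n⁻¹ * g * n) := by group
  have hnS : ∀ s ∈ (D.S : Subgroup G), n⁻¹ * s * n ∈ (D.S : Subgroup G) := fun s hs => by
    have := (Subgroup.mem_normalizer_iff.1 (inv_mem hn) s).1 hs
    simpa using this
  have hodd_conj : ∀ g : G, Odd (orderOf g) → Odd (orderOf (n⁻¹ * g * n)) := fun g hg => by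
    have := H28.orderOf_conj_eq n⁻¹ g
    rw [inv_inv] at this
    rwa [this]
  -- the part of the core centralised by `v`, moved into `PSL₂(q)`
  have hbring : ∀ g ∈ O, g * D.j v = D.j v * g → ∃ b w : PSL(2, F), n⁻¹ * g * n = D.j b ∧
      w ∈ D.V ∧ w * b * w⁻¹ = b⁻¹ ∧ Odd (orderOf b) ∧
      (n⁻¹ * t * n = D.j w ∨ n⁻¹ * t * n = t * D.j w) := by
    intro g hg hgv
    refine mem_range_of_inverted D (htr g hgv) (hodd_conj g (hOodd g hg)) (hnS t D.t_mem) ?_
    calc n⁻¹ * t * n * (n⁻¹ * g * n) * (n⁻¹ * t * n)⁻¹ = n⁻¹ * (t * g * t⁻¹) * n := by group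
      _ = (n⁻¹ * g * n)⁻¹ := by rw [hinvO g hg]; group
  have hov' : o * D.j v = D.j v * o := (mul_inv_eq_iff_eq_mul.1 hov).symm
  obtain ⟨b, w, hb, hw, hwb, hbodd, hew⟩ := hbring o hoO hov'
  have hbl : orderOf b = l := by
    have := H28.orderOf_conj_eq n⁻¹ o
    rw [inv_inv, hb, orderOf_injective D.j D.j_inj, hol] at this
    exact this
  have hb1 : b ≠ 1 := fun e => hl.ne_one (by rw [← hbl, e, orderOf_one])
  have hw1 : w ≠ 1 := fun e => hb1 (eq_one_of_sq hbodd (by
    rw [e] at hwb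
    simp only [one_mul, inv_one, mul_one] at hwb
    exact mul_eq_one_iff_eq_inv.2 hwb))
  -- elements of the core centralised by `v` and moved to `PSL₂(q)` form a set stable under `V`
  have hstab : ∀ g ∈ O, g * D.j v = D.j v * g → ∀ u ∈ D.V,
      ∃ g' ∈ O, g' * D.j v = D.j v * g' ∧ n⁻¹ * g' * n = D.j u * (n⁻¹ * g * n) * (D.j u)⁻¹ := by
    intro g hg hgv u hu
    have hs : n * D.j u * n⁻¹ ∈ (D.S : Subgroup G) :=
      (Subgroup.mem_normalizer_iff.1 hn _).1 (hjS u hu)
    refine ⟨(n * D.j u * n⁻¹) * g * (n * D.j u * n⁻¹)⁻¹, hOnorm _ (hSM hs) _ hg, ?_, by group⟩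
    have hsv : Commute (n * D.j u * n⁻¹) (D.j v) := S_comm D hs (hjS v hv)
    exact ((hsv.mul_left (show Commute g (D.j v) from hgv)).mul_left hsv.inv_left).eq
  -- all of it commutes with one involution `u ≠ w`
  obtain ⟨u, hu, hu1, huw⟩ : ∃ u ∈ D.V, u ≠ 1 ∧ u ≠ w :=
    ⟨D.x * w * D.x⁻¹, (Subgroup.mem_normalizer_iff.1 D.x_norm w).1 hw, by simpa using hw1,
      fun e => hw1 (D.x_fix w hw e)⟩
  have hVc : ∀ a ∈ D.V, ∀ c ∈ D.V, a * c = c * a := fun a ha c hc => by
    have h := congrArg (fun z => a * z * c) (hvv _ (mul_mem ha hc))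
    simpa [mul_assoc, hvv a ha, hvv c hc, ← mul_assoc a a] using h.symm
  have hparts : ∀ b' : PSL(2, F), (∃ g ∈ O, g * D.j v = D.j v * g ∧ n⁻¹ * g * n = D.j b') →
      Odd (orderOf b') ∧ w * b' * w⁻¹ = b'⁻¹ := by
    rintro b' ⟨g, hg, hgv, hgb⟩
    obtain ⟨b'', w', hb'', hw', hwb', hodd', hew'⟩ := hbring g hg hgv
    have e1 : b'' = b' := D.j_inj (by rw [← hb'', hgb])
    have e2 : w' = w := by
      have htj : t ∉ D.j.range := D.t_notMem
      rcases hew with hA | hA <;> rcases hew' with hB | hB <;> rw [hA] at hB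
      · exact (D.j_inj hB).symm
      · exact absurd ⟨w * w'⁻¹, by rw [map_mul, map_inv, hB, mul_inv_cancel_right]⟩ htj
      · exact absurd ⟨w' * w⁻¹, by rw [map_mul, map_inv, ← hB, mul_inv_cancel_right]⟩ htj
      · exact (D.j_inj (mul_left_cancel hB)).symm
    subst e1; subst e2
    exact ⟨hodd', hwb'⟩
  let Bs : Set PSL(2, F) := {b' | ∃ g ∈ O, g * D.j v = D.j v * g ∧ n⁻¹ * g * n = D.j b'}
  have hBmul : ∀ a ∈ Bs, ∀ c ∈ Bs, a * c ∈ Bs ∧ a * c = c * a ∧ a⁻¹ ∈ Bs := by
    rintro a ⟨g, hg, hgv, hga⟩ c ⟨g', hg', hgv', hgc⟩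
    refine ⟨⟨g * g', mul_mem hg hg', ((show Commute g (D.j v) from hgv).mul_left hgv').eq, ?_⟩, ?_,
      ⟨g⁻¹, inv_mem hg, (show Commute g (D.j v) from hgv).inv_left.eq, ?_⟩⟩
    · rw [map_mul, ← hga, ← hgc]; group
    · refine D.j_inj ?_
      rw [map_mul, map_mul, ← hga, ← hgc]
      calc n⁻¹ * g * n * (n⁻¹ * g' * n) = n⁻¹ * (g * g') * n := by group
        _ = n⁻¹ * (g' * g) * n := by rw [hOcomm g hg g' hg']
        _ = _ := by group
    · rw [map_inv, ← hga]; group
  have hBconj : ∀ a ∈ Bs, ∀ z ∈ D.V, z * a * z⁻¹ ∈ Bs := by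
    rintro a ⟨g, hg, hgv, hga⟩ z hz
    obtain ⟨g', hg', hgv', hg''⟩ := hstab g hg hgv z hz
    exact ⟨g', hg', hgv', by rw [hg'', hga, map_mul, map_mul, map_inv]⟩
  have hbB : b ∈ Bs := ⟨o, hoO, hov', hb⟩
  obtain ⟨u₀, hu₀, hu₀1, hu₀w, hall⟩ : ∃ u₀ ∈ D.V, u₀ ≠ 1 ∧ u₀ ≠ w ∧
      ∀ a ∈ Bs, a * u₀ = u₀ * a := by
    set u' := u * w with hu'
    have hu'V : u' ∈ D.V := mul_mem hu hw
    have hu'1 : u' ≠ 1 := fun e => huw (by
      rw [eq_inv_of_mul_eq_one_left e, inv_eq_of_mul_eq_one_right (hvv w hw)])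
    have hu'w : u' ≠ w := fun e => hu1 (mul_right_cancel (e.trans (one_mul w).symm))
    by_cases hcase : ∀ a ∈ Bs, u * a * u⁻¹ = a⁻¹
    · refine ⟨u', hu'V, hu'1, hu'w, fun a ha => ?_⟩
      have e : u' * a * u'⁻¹ = a := by
        calc u' * a * u'⁻¹ = u * (w * a * w⁻¹) * u⁻¹ := by rw [hu']; group
          _ = a := by rw [(hparts a ha).2, ← conj_inv, hcase a ha, inv_inv]
      exact (mul_inv_eq_iff_eq_mul.1 e).symm
    · refine ⟨u, hu, hu1, huw, fun a ha => ?_⟩
      push Not at hcase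
      obtain ⟨c, hc, hcu⟩ := hcase
      have huu := hvv u hu
      have hinvu := inv_eq_of_mul_eq_one_right huu
      set p := c * (u * c * u⁻¹) with hp
      have hpB : p ∈ Bs := (hBmul c hc _ (hBconj c hc u hu)).1
      have hp1 : p ≠ 1 := fun e => hcu (inv_eq_of_mul_eq_one_right e).symm
      have hpu : p * u = u * p := by
        have e : u * p * u⁻¹ = p := by
          calc u * p * u⁻¹ = (u * c * u⁻¹) * ((u * u) * c * (u * u)⁻¹) := by rw [hp]; group
            _ = (u * c * u⁻¹) * c := by rw [huu]; simp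
            _ = p := (hBmul c hc _ (hBconj c hc u hu)).2.1.symm
        exact (mul_inv_eq_iff_eq_mul.1 e).symm
      exact commute_involution_of_common h2 hp1 (hparts p hpB).1 (hparts a ha).1 hpu
        ((hBmul a ha p hpB).2.1)
  have hu₀2 : orderOf u₀ = 2 := orderOf_eq_prime (by rw [sq, hvv u₀ hu₀]) hu₀1
  obtain ⟨Tor, hTor, hTmem⟩ := exists_cyclic_of_commute_involution h2 hu₀2
  -- elements of order dividing `l` in the core centralised by `v` are powers of `o`
  have hpow : ∀ g ∈ O, g * D.j v = D.j v * g → g ^ l = 1 → ∃ k : ℕ, g = o ^ k := by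
    intro g hg hgv hgl
    obtain ⟨c, -, hc, -, -, -, -⟩ := hbring g hg hgv
    have hcB : c ∈ Bs := ⟨g, hg, hgv, hc⟩
    have hcl : c ^ l = 1 := D.j_inj (by
      rw [map_pow, ← hc, map_one]
      calc (n⁻¹ * g * n) ^ l = n⁻¹ * g ^ l * n := by
            have := conj_pow (a := n⁻¹) (b := g) (i := l)
            rwa [inv_inv] at this
        _ = 1 := by rw [hgl]; group)
    haveI := hTor
    have hbT : b ∈ Tor := hTmem b hbodd (hall b hbB)
    have hcT : c ∈ Tor := hTmem c (hparts c hcB).1 (hall c hcB)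
    obtain ⟨k, hk⟩ : ∃ k : ℕ, c = b ^ k := by
      let bT : Tor := ⟨b, hbT⟩
      let cT : Tor := ⟨c, hcT⟩
      have hmem : cT ∈ Subgroup.zpowers bT := by
        by_contra hnot
        let R : Finset Tor := Finset.univ.filter fun z => z ^ l = 1
        have hR : R.card ≤ l := IsCyclic.card_pow_eq_one_le hl.pos
        have hsub : insert cT (Finset.univ.filter fun z => z ∈ Subgroup.zpowers bT) ⊆ R := by
          intro z hz
          simp only [Finset.mem_insert, Finset.mem_filter, Finset.mem_univ, true_and, R] at hz ⊢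
          rcases hz with rfl | hz
          · exact Subtype.ext (by simpa [cT] using hcl)
          · obtain ⟨i, rfl⟩ := hz
            show (bT ^ i) ^ l = 1
            rw [← zpow_natCast, ← _root_.zpow_mul, mul_comm, _root_.zpow_mul, zpow_natCast,
              show bT ^ l = 1 from Subtype.ext (by
                show b ^ l = 1
                rw [← hbl, pow_orderOf_eq_one]), _root_.one_zpow]
        have h1 := (Finset.card_le_card hsub).trans hR
        rw [Finset.card_insert_of_notMem (by simpa using hnot)] at h1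
        have h2' : (Finset.univ.filter fun z => z ∈ Subgroup.zpowers bT).card = l := by
          rw [← Fintype.card_subtype, ← Nat.card_eq_fintype_card]
          show Nat.card (Subgroup.zpowers bT) = l
          rw [Nat.card_zpowers, Subgroup.orderOf_mk, hbl]
        omega
      obtain ⟨k, hk⟩ := (mem_powers_iff_mem_zpowers (x := bT) (y := cT)).2 hmem
      exact ⟨k, congrArg Subtype.val hk.symm⟩
    refine ⟨k, ?_⟩
    have e : n⁻¹ * g * n = n⁻¹ * o ^ k * n := by
      rw [hc, hk, map_pow, ← hb]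
      have := conj_pow (a := n⁻¹) (b := o) (i := k)
      rw [inv_inv] at this
      rw [this]
    simpa using e
  -- an element of order `l` of `PSL₂(q)` centralised by `v`
  obtain ⟨i, hi⟩ := mem_four_cases D hu₀ hu₀1 hv hv1
  set τ := D.x ^ i * b * (D.x ^ i)⁻¹ with hτ
  set w' := D.x ^ i * w * (D.x ^ i)⁻¹ with hw'
  have hτv : τ * v = v * τ := by
    rw [← hi, hτ]
    calc D.x ^ i * b * (D.x ^ i)⁻¹ * (D.x ^ i * u₀ * (D.x ^ i)⁻¹)
        = D.x ^ i * (b * u₀) * (D.x ^ i)⁻¹ := by group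
      _ = D.x ^ i * (u₀ * b) * (D.x ^ i)⁻¹ := by rw [hall b hbB]
      _ = _ := by group
  have hτl : orderOf τ = l := by rw [hτ, H28.orderOf_conj_eq, hbl]
  have hτinv : w' * τ * w'⁻¹ = τ⁻¹ := by
    calc w' * τ * w'⁻¹ = D.x ^ i * (w * b * w⁻¹) * (D.x ^ i)⁻¹ := by rw [hτ, hw']; group
      _ = τ⁻¹ := by rw [hwb, hτ]; group
  have hw'V : w' ∈ D.V := (Subgroup.mem_normalizer_iff.1 (pow_mem D.x_norm i) w).1 hw
  set T := D.j τ with hT
  have hTv : T * D.j v = D.j v * T := by rw [hT, ← map_mul, hτv, map_mul]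
  have hTt : T * t = t * T := Subgroup.mem_centralizer_singleton_iff.1 (D.j_mem τ)
  -- `T` centralises `o`
  have hfixo : T * o * T⁻¹ = o := by
    have hg : T * o * T⁻¹ ∈ O := hOnorm _ (hC (D.j_mem τ)) _ hoO
    have hgv : T * o * T⁻¹ * D.j v = D.j v * (T * o * T⁻¹) :=
      (((show Commute T (D.j v) from hTv).mul_left (show Commute o (D.j v) from hov')).mul_left
        (show Commute T (D.j v) from hTv).inv_left).eq
    obtain ⟨k, hk⟩ := hpow _ hg hgv (by rw [conj_pow, ← hol, pow_orderOf_eq_one]; simp)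
    have hiter : ∀ m : ℕ, T ^ m * o * (T ^ m)⁻¹ = o ^ (k ^ m) := by
      intro m
      induction m with
      | zero => simp
      | succ m ih =>
        calc T ^ (m + 1) * o * (T ^ (m + 1))⁻¹ = T ^ m * (T * o * T⁻¹) * (T ^ m)⁻¹ := by
              rw [pow_succ]; group
          _ = (T ^ m * o * (T ^ m)⁻¹) ^ k := by rw [hk, conj_pow]
          _ = o ^ k ^ (m + 1) := by rw [ih, ← pow_mul, pow_succ]
    have h1 := hiter l
    have hTl : T ^ l = 1 := by rw [hT, ← map_pow, ← hτl, pow_orderOf_eq_one, map_one]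
    rw [hTl] at h1
    simp only [one_mul, inv_one, mul_one] at h1
    have h3 : o ^ k ^ l = o ^ k := by
      rw [pow_eq_pow_iff_modEq, hol, ← ZMod.natCast_eq_natCast_iff, Nat.cast_pow, ZMod.pow_card]
    rw [hk, ← h3, ← h1]
  have hTo : T * o = o * T := mul_inv_eq_iff_eq_mul.1 hfixo
  -- an element of the Sylow subgroup centralising `o` and `v` and inverting `T`
  obtain ⟨z, hz, hzo, hzT⟩ : ∃ z ∈ (D.S : Subgroup G), z * o * z⁻¹ = o ∧ z * T * z⁻¹ = T⁻¹ := by
    have hsS : D.j w' ∈ (D.S : Subgroup G) := hjS _ hw'V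
    have hsT : D.j w' * T * (D.j w')⁻¹ = T⁻¹ := by
      rw [hT, ← map_inv, ← map_mul, ← map_mul, hτinv, map_inv]
    have hg : D.j w' * o * (D.j w')⁻¹ ∈ O := hOnorm _ (hSM hsS) _ hoO
    have hsv : Commute (D.j w') (D.j v) := S_comm D hsS (hjS v hv)
    have hgv : D.j w' * o * (D.j w')⁻¹ * D.j v = D.j v * (D.j w' * o * (D.j w')⁻¹) :=
      ((hsv.mul_left (show Commute o (D.j v) from hov')).mul_left hsv.inv_left).eq
    obtain ⟨k, hk⟩ := hpow _ hg hgv (by rw [conj_pow, ← hol, pow_orderOf_eq_one]; simp)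
    have hkk : o ^ (k * k) = o := by
      have hjj : D.j w' * D.j w' = 1 := by rw [← map_mul, hvv w' hw'V, map_one]
      calc o ^ (k * k) = (o ^ k) ^ k := pow_mul o k k
        _ = (D.j w' * o * (D.j w')⁻¹) ^ k := by rw [hk]
        _ = D.j w' * (D.j w' * o * (D.j w')⁻¹) * (D.j w')⁻¹ := by rw [conj_pow, hk]
        _ = (D.j w' * D.j w') * o * (D.j w' * D.j w')⁻¹ := by group
        _ = o := by rw [hjj]; simp
    have hsq : ((k : ZMod l)) ^ 2 = 1 := by
      have h : o ^ (k * k) = o ^ 1 := by rw [hkk, pow_one]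
      rw [pow_eq_pow_iff_modEq, hol, ← ZMod.natCast_eq_natCast_iff] at h
      simpa [sq] using h
    rcases sq_eq_one_iff.1 hsq with h1 | h1
    · refine ⟨_, hsS, ?_, hsT⟩
      rw [hk]
      conv_rhs => rw [← pow_one o]
      rw [pow_eq_pow_iff_modEq, hol, ← ZMod.natCast_eq_natCast_iff, h1, Nat.cast_one]
    · have hs' : D.j w' * o * (D.j w')⁻¹ = o⁻¹ := by
        rw [hk]
        refine (inv_eq_of_mul_eq_one_left ?_).symm
        rw [← pow_succ, ← orderOf_dvd_iff_pow_eq_one, hol, ← ZMod.natCast_eq_zero_iff, Nat.cast_add, h1]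
        simp
      refine ⟨t * D.j w', mul_mem D.t_mem hsS, ?_, ?_⟩
      · calc t * D.j w' * o * (t * D.j w')⁻¹ = t * (D.j w' * o * (D.j w')⁻¹) * t⁻¹ := by group
          _ = (t * o * t⁻¹)⁻¹ := by rw [hs']; group
          _ = o := by rw [hinvO o hoO, inv_inv]
      · calc t * D.j w' * T * (t * D.j w')⁻¹ = t * (D.j w' * T * (D.j w')⁻¹) * t⁻¹ := by group
          _ = (t * T * t⁻¹)⁻¹ := by rw [hsT]; group
          _ = T⁻¹ := by rw [← hTt, mul_inv_cancel_right]
  -- the contradiction inside `PSL₂(q)`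
  have hTodd : Odd (orderOf T) := by
    rw [hT, orderOf_injective D.j D.j_inj, hτl, ← hol]
    exact hOodd o hoO
  obtain ⟨γ, z', hγ, hz', hzγ, hγodd, hze⟩ := mem_range_of_inverted D (htr T hTv) (hodd_conj T hTodd)
    (hnS z hz) (by
      calc n⁻¹ * z * n * (n⁻¹ * T * n) * (n⁻¹ * z * n)⁻¹ = n⁻¹ * (z * T * z⁻¹) * n := by group
        _ = (n⁻¹ * T * n)⁻¹ := by rw [hzT]; group)
  have hz'b : b * z' = z' * b := by
    refine D.j_inj ?_
    rw [map_mul, map_mul, ← hb]
    have hc : Commute (n⁻¹ * o * n) (n⁻¹ * z * n) := by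
      show n⁻¹ * o * n * (n⁻¹ * z * n) = n⁻¹ * z * n * (n⁻¹ * o * n)
      calc n⁻¹ * o * n * (n⁻¹ * z * n) = n⁻¹ * (o * z) * n := by group
        _ = n⁻¹ * (z * o) * n := by rw [← mul_inv_eq_iff_eq_mul.1 hzo]
        _ = _ := by group
    have htc : Commute (n⁻¹ * o * n) t := Subgroup.mem_centralizer_singleton_iff.1 (htr o hov')
    rcases hze with h | h
    · rw [← h]; exact hc.eq
    · have e : D.j z' = t⁻¹ * (n⁻¹ * z * n) := by rw [h, inv_mul_cancel_left]
      rw [e]
      exact (htc.inv_right.mul_right hc).eq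
  have hγb : γ * b = b * γ := by
    refine D.j_inj ?_
    rw [map_mul, map_mul, ← hγ, ← hb]
    calc n⁻¹ * T * n * (n⁻¹ * o * n) = n⁻¹ * (T * o) * n := by group
      _ = n⁻¹ * (o * T) * n := by rw [hTo]
      _ = _ := by group
  have hzz := commute_involution_of_common h2 hb1 hbodd hγodd hz'b hγb
  rw [← hzz, mul_inv_cancel_right] at hzγ
  have hγ1 : γ = 1 := eq_one_of_sq hγodd (mul_eq_one_iff_eq_inv.2 hzγ)
  rw [hγ1, map_one] at hγ
  have : T = 1 := by
    calc T = n * (n⁻¹ * T * n) * n⁻¹ := by group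
      _ = 1 := by rw [hγ]; simp
  rw [hT, ← map_one D.j] at this
  rw [D.j_inj this, orderOf_one] at hτl
  exact hl.ne_one hτl.symm

end Cfsg.Agent.H23.S1245
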