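import Cfsg.Agent.H23.S1245.Isolated

/-!
# Overgroups of an involution centraliser `2 × PSL₂(q)`
-/

set_option autoImplicit false

open Matrix MatrixGroups

namespace Cfsg.Agent.H23.S1245

open Cfsg.Agent.H77.JankoRee

/-- In a simple group with such an involution centraliser, a proper overgroup of the centraliser
is either the centraliser or strongly embedded. -/
theorem centralizer_or_stronglyEmbedded {G : Type*} [Group G] [Finite G] [IsSimpleGroup G]
    (hna : ¬ IsMulCommutative G) {F : Type*} [Field F] [Fintype F] (h2 : (2 : F) ≠ 0) {t : G}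
    (ht : orderOf t = 2) (D : Data t F) {M : Subgroup G} (hM : M ≠ ⊤)
    (hC : Subgroup.centralizer ({t} : Set G) ≤ M) :
    M = Subgroup.centralizer ({t} : Set G) ∨ Cfsg.IsStronglyEmbedded M := by
  by_cases hiso : ∀ m ∈ M, Commute t (m * t * m⁻¹) → m * t * m⁻¹ = t
  · exact Or.inl (le_antisymm (le_centralizer_of_isolated hna ht D h2 hC hiso) hC)
  · push Not at hiso
    obtain ⟨m, hm, hc, hne⟩ := hiso
    exact Or.inr (isStronglyEmbedded_of_fusion D ht hM hC (fusion_full D ht hC hm hc hne))

end Cfsg.Agent.H23.S1245
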