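import Cfsg.Agent.H77.JankoReeSetup
import Cfsg.Agent.H28.StronglyEmbedded
import Cfsg.Agent.H1.SmallIso
import Cfsg.Agent.S0807

/-!
# A Janko–Ree configuration over the field with three elements: local structure
-/

set_option autoImplicit false
set_option linter.style.haveILetI false

open Matrix MatrixGroups

namespace Cfsg.Agent.H23.S1245.Three

universe u

/-- `PSL₂(3)` has order 12 and a normal four-group containing all its involutions. -/
theorem psl_facts {F : Type} [Field F] [Fintype F] (hq : Fintype.card F = 3)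
    {V : Subgroup PSL(2, F)} (hV : IsKleinFour V) :
    Nat.card PSL(2, F) = 12 ∧ V.Normal ∧ ∀ z, z * z = 1 → z ∈ V := by
  have hc : Nat.card PSL(2, F) = 12 := by
    have h := Cfsg.Agent.H1.card_PSL_two (F := F) hq
    norm_num at h
    omega
  have hone := Cfsg.Agent.S0807.result (F := F) hq ⟨1, rfl⟩
  rw [hc] at hone
  have hsub : Nat.card {W : Subgroup PSL(2, F) // IsKleinFour W} = 1 := by omega
  obtain ⟨hu, -⟩ := Nat.card_eq_one_iff_unique.1 hsub
  have hn : V.Normal := by
    refine ⟨fun v hv g => ?_⟩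
    let e := Subgroup.equivMapOfInjective V (MulAut.conj g).toMonoidHom (MulAut.conj g).injective
    have hW : IsKleinFour (V.map (MulAut.conj g).toMonoidHom : Subgroup PSL(2, F)) :=
      { card_four := by rw [← Nat.card_congr e.toEquiv]; exact hV.card_four
        exponent_two := by rw [← Monoid.exponent_eq_of_mulEquiv e]; exact hV.exponent_two }
    rw [show V = V.map (MulAut.conj g).toMonoidHom from
      congrArg Subtype.val (hu.elim ⟨V, hV⟩ ⟨_, hW⟩)]
    exact ⟨v, hv, rfl⟩
  refine ⟨hc, hn, fun z hz => ?_⟩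
  have hidx : V.index = 3 := by
    have := V.index_mul_card
    rw [hV.card_four, hc] at this
    omega
  have := V.pow_index_mem z
  rwa [hidx, pow_succ', pow_two, hz, mul_one] at this

variable {G : Type u} [Group G] [Finite G] {F : Type} [Field F] [Fintype F]

open Cfsg.Agent.H77.JankoRee in
/-- The centraliser of the involution. -/
theorem centralizer_facts (hq : Fintype.card F = 3) {t : G} (ht : orderOf t = 2) (D : Data t F) :
    Nat.card (Subgroup.centralizer ({t} : Set G)) = 24 ∧
      (∀ w ∈ Subgroup.centralizer ({t} : Set G), w * w = 1 → w ∈ (D.S : Subgroup G)) ∧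
      (∀ y ∈ Subgroup.centralizer ({t} : Set G), orderOf y = 3 → ∀ s ∈ (D.S : Subgroup G),
        y * s = s * y → s = 1 ∨ s = t) := by
  classical
  haveI : Fact (Nat.Prime 2) := ⟨Nat.prime_two⟩
  obtain ⟨hc, hVn, hinv⟩ := psl_facts hq D.four
  set C := Subgroup.centralizer ({t} : Set G) with hCdef
  have hvv : ∀ v ∈ D.V, v * v = 1 := fun v hv => by
    have := D.four
    simpa using congrArg Subtype.val (IsKleinFour.mul_self (⟨v, hv⟩ : D.V))
  have hV4 : Nat.card D.V = 4 := D.four.card_four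
  have htc : ∀ z, t * D.j z = D.j z * t := fun z =>
    (Subgroup.mem_centralizer_singleton_iff.1 (D.j_mem z)).symm
  have htt : t * t = 1 := D.S_sq t D.t_mem
  have hSC : (D.S : Subgroup G) ≤ C := by
    intro s hs
    rw [hCdef, Subgroup.mem_centralizer_singleton_iff]
    obtain ⟨v, -, rfl | rfl⟩ := (D.S_cases s).1 hs
    · exact (htc v).symm
    · rw [mul_assoc, ← htc v]
  have hxV : D.x ∉ D.V := fun h => by
    have h1 : orderOf D.x ∣ 4 := hV4 ▸ Subgroup.orderOf_dvd_natCard D.V h
    rw [D.x_order] at h1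
    norm_num at h1
  -- a subgroup containing the four-group and an element outside it is everything
  have htop : ∀ K : Subgroup PSL(2, F), D.V ≤ K → ∀ z ∈ K, z ∉ D.V → K = ⊤ := by
    intro K hK z hz hzV
    refine Subgroup.eq_top_of_card_eq _ ?_
    have h1 : 4 ∣ Nat.card K := hV4 ▸ Subgroup.card_dvd_of_le hK
    have h2 : Nat.card K ∣ 12 := hc ▸ Subgroup.card_subgroup_dvd_card K
    have h3 : Nat.card K ≠ 4 := fun e =>
      hzV ((Subgroup.eq_of_le_of_card_ge hK (by rw [e, hV4])).symm ▸ hz)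
    rw [hc]
    have h4 : Nat.card K ≤ 12 := Nat.le_of_dvd (by norm_num) h2
    interval_cases h : Nat.card K <;> omega
  obtain ⟨v, hv, hv1⟩ : ∃ v ∈ D.V, v ≠ 1 := by
    apply (Subgroup.nontrivial_iff_exists_ne_one D.V).1
    exact Finite.one_lt_card_iff_nontrivial.1 (by omega)
  have hgen : ∀ d : G, d * D.j v = D.j v * d → d * D.j D.x = D.j D.x * d →
      ∀ z, d * D.j z = D.j z * d := by
    intro d hdv hdx
    let K := (Subgroup.centralizer ({d} : Set G)).comap D.j
    have hK : ∀ z, z ∈ K ↔ d * D.j z = D.j z * d := fun z => by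
      rw [Subgroup.mem_comap, Subgroup.mem_centralizer_singleton_iff]
      exact eq_comm
    have hVK : D.V ≤ K := by
      have hvK := (hK v).2 hdv
      have hxK := (hK _).2 hdx
      have hw : D.x * v * D.x⁻¹ ∈ D.V := hVn.conj_mem v hv _
      have hwK : D.x * v * D.x⁻¹ ∈ K := mul_mem (mul_mem hxK hvK) (inv_mem hxK)
      refine le_trans (le_of_eq ?_) (inf_le_right : D.V ⊓ K ≤ K)
      refine (Subgroup.eq_of_le_of_card_ge inf_le_left ?_).symm
      have h2 : Nat.card ↥(D.V ⊓ K) ∣ 4 := hV4 ▸ Subgroup.card_dvd_of_le inf_le_left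
      have h3 : 2 < Nat.card ↥(D.V ⊓ K) := by
        have hne : D.x * v * D.x⁻¹ ≠ v := fun e => hv1 (D.x_fix v hv e)
        have hne1 : D.x * v * D.x⁻¹ ≠ 1 := fun e => hv1 (by simpa using e)
        have hsub : ({1, v, D.x * v * D.x⁻¹} : Set PSL(2, F)) ⊆ ((D.V ⊓ K : Subgroup PSL(2, F)) : Set PSL(2, F)) := by
          rintro _ (rfl | rfl | rfl)
          exacts [one_mem _, ⟨hv, hvK⟩, ⟨hw, hwK⟩]
        have := Set.ncard_le_ncard hsub
        rw [Set.ncard_eq_three.mpr ⟨_, _, _, hv1.symm, hne1.symm, hne.symm, rfl⟩, ← Nat.card_coe_set_eq] at this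
        exact this
      rw [hV4]
      have h4 := Nat.le_of_dvd (by norm_num) h2
      interval_cases h : Nat.card ↥(D.V ⊓ K) <;> omega
    have hKtop := htop K hVK D.x ((hK _).2 hdx) hxV
    intro z
    exact (hK z).1 (hKtop ▸ Subgroup.mem_top z)
  have hcV : ∀ c ∈ C, ∀ u ∈ D.V, ∃ w ∈ D.V, D.j w = c * D.j u * c⁻¹ := by
    intro c hcC u hu
    obtain ⟨w, hw⟩ := D.conj_mem c hcC u
    refine ⟨w, hinv w (D.j_inj ?_), hw⟩
    rw [map_mul, hw, map_one]
    calc c * D.j u * c⁻¹ * (c * D.j u * c⁻¹) = c * (D.j u * D.j u) * c⁻¹ := by group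
      _ = 1 := by rw [← map_mul, hvv u hu, map_one, mul_one, mul_inv_cancel]
  -- upper bound
  have hle : Nat.card C ≤ 48 := by
    let T : Set (PSL(2, F) × PSL(2, F)) := ((D.V : Set PSL(2, F)) \ {1}) ×ˢ (D.V : Set PSL(2, F))ᶜ
    have hT : Nat.card T = 24 := by
      have h1 : (D.V : Set PSL(2, F)).ncard = 4 := hV4
      show Nat.card T = 3 * 8
      rw [Nat.card_coe_set_eq, Set.ncard_prod, Set.ncard_sdiff_singleton_of_mem (one_mem D.V),
        Set.ncard_compl, h1, hc]
    have hmem : ∀ c : C, ∃ p ∈ T, D.j p.1 = (c : G) * D.j v * (c : G)⁻¹ ∧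
        D.j p.2 = (c : G) * D.j D.x * (c : G)⁻¹ := by
      intro c
      obtain ⟨w, hw, hjw⟩ := hcV c c.2 v hv
      obtain ⟨z, hz⟩ := D.conj_mem c c.2 D.x
      refine ⟨(w, z), ⟨⟨hw, fun e => hv1 (D.j_inj ?_)⟩, fun hzV => ?_⟩, hjw, hz⟩
      · have e' : w = 1 := e
        rw [e', map_one] at hjw
        rw [map_one]
        simpa using hjw.symm
      · obtain ⟨w', hw', e⟩ := hcV (c : G)⁻¹ (inv_mem c.2) z hzV
        apply hxV
        rw [hz] at e
        rwa [← D.j_inj (show D.j w' = D.j D.x by rw [e]; group)]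
    choose p hpT hp1 hp2 using hmem
    let q : C → T := fun c => ⟨p c, hpT c⟩
    let rep : T → C := fun τ => if h : ∃ c, q c = τ then h.choose else 1
    let f : C → T × Bool := fun c => (q c, decide ((rep (q c))⁻¹ * c = 1))
    have hrep : ∀ c, q (rep (q c)) = q c := fun c => by
      have h : ∃ c', q c' = q c := ⟨c, rfl⟩
      simp only [rep, dif_pos h]
      exact h.choose_spec
    have hker : ∀ a b : C, q a = q b → a⁻¹ * b = 1 ∨ ((a⁻¹ * b : C) : G) = t := by
      intro a b e
      have e1 : p a = p b := congrArg Subtype.val e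
      have h1 := hp1 b
      have h2 := hp2 b
      rw [← e1, hp1 a] at h1
      rw [← e1, hp2 a] at h2
      have key : ∀ u, (a : G) * u * (a : G)⁻¹ = (b : G) * u * (b : G)⁻¹ →
          ((a : G)⁻¹ * b) * u = u * ((a : G)⁻¹ * b) := fun u hu => by
        calc ((a : G)⁻¹ * b) * u = (a : G)⁻¹ * ((b : G) * u * (b : G)⁻¹) * b := by group
          _ = u * ((a : G)⁻¹ * b) := by rw [← hu]; group
      rcases D.cent_eq _ (a⁻¹ * b).2 (hgen _ (key _ h1) (key _ h2)) with h | h
      · exact Or.inl (Subtype.ext h)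
      · exact Or.inr h
    have hf : Function.Injective f := by
      intro a b e
      obtain ⟨e1, e2⟩ := Prod.ext_iff.1 e
      simp only [f] at e1 e2
      rw [← e1] at e2
      have ha := hker (rep (q a)) a (hrep a)
      have hb := hker (rep (q a)) b (by rw [hrep a, e1])
      rcases ha with ha | ha <;> rcases hb with hb | hb
      · exact mul_left_cancel (ha.trans hb.symm)
      · rw [decide_eq_decide] at e2
        exact mul_left_cancel ((ha).trans (e2.1 ha).symm)
      · rw [decide_eq_decide] at e2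
        exact mul_left_cancel ((e2.2 hb).trans hb.symm)
      · exact mul_left_cancel (Subtype.ext (ha.trans hb.symm))
    have := Nat.card_le_card_of_injective f hf
    rw [Nat.card_prod, hT, Nat.card_eq_fintype_card (α := Bool), Fintype.card_bool] at this
    omega
  have hR : Nat.card D.j.range = 12 := by
    rw [← hc]; exact (Nat.card_congr (MonoidHom.ofInjective D.j_inj).toEquiv).symm
  have hRC : D.j.range ≤ C := by rintro _ ⟨z, rfl⟩; exact D.j_mem z
  have h12 : 12 ∣ Nat.card C := hR ▸ Subgroup.card_dvd_of_le hRC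
  have h8 : 8 ∣ Nat.card C := D.S_card ▸ Subgroup.card_dvd_of_le hSC
  have h16 : ¬ 16 ∣ Nat.card C := by
    intro h
    have h' : 2 ^ 4 ∣ Nat.card G := (show (16 : ℕ) = 2 ^ 4 by norm_num) ▸
      h.trans (Subgroup.card_subgroup_dvd_card C)
    obtain ⟨Q, hQ⟩ := Sylow.exists_subgroup_card_pow_prime 2 h'
    obtain ⟨R, hR'⟩ := (IsPGroup.of_card hQ).exists_le_sylow
    have h2 : Nat.card Q ∣ Nat.card (R : Subgroup G) := Subgroup.card_dvd_of_le hR'
    rw [hQ, R.card_eq_multiplicity, ← D.S.card_eq_multiplicity, D.S_card] at h2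
    norm_num at h2
  have hC24 : Nat.card C = 24 := by
    obtain ⟨k, hk⟩ := Nat.lcm_dvd h12 h8
    have : Nat.lcm 12 8 = 24 := rfl
    rw [this] at hk
    have : Nat.card C > 0 := Nat.card_pos
    have : k ≤ 2 := by omega
    interval_cases k
    · omega
    · omega
    · exact absurd ⟨3, by omega⟩ h16
  refine ⟨hC24, ?_, ?_⟩
  · intro w hw hww
    let S' := (D.S : Subgroup G).subgroupOf C
    haveI : S'.Normal := by
      refine ⟨fun s hs c => ?_⟩
      have hs' : (s : G) ∈ (D.S : Subgroup G) := hs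
      show (c : G) * s * (c : G)⁻¹ ∈ (D.S : Subgroup G)
      obtain ⟨u, hu, h⟩ := (D.S_cases _).1 hs'
      obtain ⟨w', hw', e⟩ := hcV c c.2 u hu
      refine (D.S_cases _).2 ⟨w', hw', ?_⟩
      rcases h with h | h
      · exact Or.inl (by rw [h, e])
      · right
        have hct : (c : G) * t = t * c := Subgroup.mem_centralizer_singleton_iff.1 c.2
        rw [h, e, ← mul_assoc, hct]
        group
    have hidx : S'.index = 3 := by
      have := S'.index_mul_card
      rw [Nat.card_congr (Subgroup.subgroupOfEquivOfLe hSC).toEquiv, D.S_card, hC24] at this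
      omega
    have := S'.pow_index_mem (⟨w, hw⟩ : C)
    rw [hidx, Subgroup.mem_subgroupOf] at this
    simpa [pow_succ', hww] using this
  · intro y hy hy3 s hs hys
    let R' := D.j.range.subgroupOf C
    haveI : R'.Normal := by
      refine ⟨fun r hr c => ?_⟩
      obtain ⟨z, hz⟩ := Subgroup.mem_subgroupOf.1 hr
      show (c : G) * r * (c : G)⁻¹ ∈ D.j.range
      rw [← hz]
      exact D.conj_mem c c.2 z
    have hidx : R'.index = 2 := by
      have := R'.index_mul_card
      rw [Nat.card_congr (Subgroup.subgroupOfEquivOfLe hRC).toEquiv, hR, hC24] at this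
      omega
    have hy2 := R'.pow_index_mem (⟨y, hy⟩ : C)
    rw [hidx, Subgroup.mem_subgroupOf] at hy2
    simp only [SubgroupClass.coe_pow] at hy2
    have hy3' : y ^ 3 = 1 := hy3 ▸ pow_orderOf_eq_one y
    obtain ⟨z, hz⟩ : y ∈ D.j.range := by
      have := pow_mem hy2 2
      rwa [← pow_mul, pow_succ, hy3', one_mul] at this
    have hzV : z ∉ D.V := fun h => by
      have : y ^ 2 = 1 := by rw [sq, ← hz, ← map_mul, hvv z h, map_one]
      have := hy3 ▸ orderOf_dvd_of_pow_eq_one this
      norm_num at this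
    obtain ⟨u, hu, h⟩ := (D.S_cases s).1 hs
    have hzu : z * u = u * z := by
      apply D.j_inj
      rw [map_mul, map_mul, hz]
      rcases h with rfl | rfl
      · exact hys
      · have hyt : y * t = t * y := Subgroup.mem_centralizer_singleton_iff.1 hy
        rw [← mul_assoc, hyt, mul_assoc, mul_assoc] at hys
        exact mul_left_cancel hys
    have hVK : D.V ≤ Subgroup.centralizer ({u} : Set PSL(2, F)) := fun r hr => by
      rw [Subgroup.mem_centralizer_singleton_iff]
      have := D.four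
      exact congrArg Subtype.val (mul_comm_of_exponent_two this.exponent_two (⟨r, hr⟩ : D.V) ⟨u, hu⟩)
    have := htop _ hVK z (Subgroup.mem_centralizer_singleton_iff.2 hzu) hzV
    have hx' : D.x * u = u * D.x :=
      Subgroup.mem_centralizer_singleton_iff.1 (this ▸ Subgroup.mem_top D.x)
    have : u = 1 := D.x_fix u hu (by rw [hx', mul_inv_cancel_right])
    rw [this, map_one] at h
    rcases h with h | h
    · exact Or.inl h
    · exact Or.inr (h.trans (mul_one t))

/-- The data of the configuration used in the counting arguments. -/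
structure Ctx (M : Subgroup G) (t : G) : Prop where
  /-- `M` is strongly embedded -/
  se : Cfsg.IsStronglyEmbedded M
  /-- the centralizer lies in `M` -/
  cent_le : Subgroup.centralizer ({t} : Set G) ≤ M
  /-- the action on the cosets is faithful -/
  core : ∀ q : G, (∀ g : G, g⁻¹ * q * g ∈ M) → q = 1
  /-- the order of `t` -/
  t_order : orderOf t = 2
  /-- the order of the centralizer -/
  cardC : Nat.card (Subgroup.centralizer ({t} : Set G)) = 24
  /-- the order of `M` -/
  cardM : Nat.card M = 168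
  /-- seven involutions in `M` -/
  inv7 : Nat.card {s : G // orderOf s = 2 ∧ s ∈ M} = 7
  /-- one class of involutions -/
  conj_t : ∀ s : G, orderOf s = 2 → ∃ g, g * s * g⁻¹ = t
  /-- no element of order three centralizes a four-group -/
  noFour : ∀ y u w : G, orderOf y = 3 → orderOf u = 2 → orderOf w = 2 → u * w = w * u →
    y * u = u * y → y * w = w * y → u = w
  /-- the 2-subgroups are elementary -/
  two_sq : ∀ Q : Subgroup G, IsPGroup 2 Q → ∀ a ∈ Q, a * a = 1
  /-- the order of the 2-part -/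
  two_dvd : ¬ 16 ∣ Nat.card G
  /-- the involutions of `M` commute -/
  inv_comm : ∀ a ∈ M, ∀ b ∈ M, orderOf a = 2 → orderOf b = 2 → a * b = b * a

omit [Finite G] in
/-- An element squaring to one is trivial or an involution. -/
theorem orderOf_two {a : G} (h : a * a = 1) (h1 : a ≠ 1) : orderOf a = 2 :=
  orderOf_eq_prime (by rw [sq, h]) h1

open Cfsg.Agent.H77.JankoRee in
/-- The configuration. -/
theorem ctx [IsSimpleGroup G] (hq : Fintype.card F = 3) {t : G} (ht : orderOf t = 2)
    (D : Data t F) {M : Subgroup G} (hM : Cfsg.IsStronglyEmbedded M) (hsol : Group.IsSolvable M)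
    (hC : Subgroup.centralizer ({t} : Set G) ≤ M)
    (hfus : ∀ s ∈ (D.S : Subgroup G), s ≠ 1 → ∃ m ∈ M, m * t * m⁻¹ = s) : Ctx M t := by
  classical
  haveI : Fact (Nat.Prime 2) := ⟨Nat.prime_two⟩
  obtain ⟨hC24, hw2, hy3⟩ := centralizer_facts hq ht D
  have hScomm : ∀ a ∈ (D.S : Subgroup G), ∀ b ∈ (D.S : Subgroup G), a * b = b * a := fun a ha b hb => by
    have h := congrArg (fun z => a * z * b) (D.S_sq _ (mul_mem ha hb))
    simpa [mul_assoc, D.S_sq a ha, D.S_sq b hb, ← mul_assoc a a] using h.symm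
  have hSC : (D.S : Subgroup G) ≤ Subgroup.centralizer ({t} : Set G) := fun s hs =>
    Subgroup.mem_centralizer_singleton_iff.2 (hScomm s hs t D.t_mem)
  have hSM := hSC.trans hC
  have htM : t ∈ M := hSM D.t_mem
  have hconjS : ∀ Q : Subgroup G, IsPGroup 2 Q → ∃ g, ∀ a ∈ Q, g * a * g⁻¹ ∈ (D.S : Subgroup G) := by
    intro Q hQ
    obtain ⟨R, hR⟩ := hQ.exists_le_sylow
    obtain ⟨g, hg⟩ := MulAction.exists_smul_eq G R D.S
    exact ⟨g, fun a ha => hg ▸ ⟨a, hR ha, rfl⟩⟩
  have htwo : ∀ Q : Subgroup G, IsPGroup 2 Q → ∀ a ∈ Q, a * a = 1 := by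
    intro Q hQ a ha
    obtain ⟨g, hg⟩ := hconjS Q hQ
    have := D.S_sq _ (hg a ha)
    rwa [conj_mul, mul_inv_eq_one, mul_eq_left] at this
  have hconj : ∀ s : G, orderOf s = 2 → ∃ g, g * s * g⁻¹ = t := by
    intro s hs
    obtain ⟨g, hg⟩ := hconjS (Subgroup.zpowers s)
      (IsPGroup.of_card (n := 1) (by rw [Nat.card_zpowers, hs, pow_one]))
    obtain ⟨m, -, hm⟩ := hfus _ (hg s (Subgroup.mem_zpowers s)) fun e => by
      rw [mul_inv_eq_one, mul_eq_left] at e
      simp [e] at hs
    exact ⟨m⁻¹ * g, by rw [show m⁻¹ * g * s * (m⁻¹ * g)⁻¹ = m⁻¹ * (g * s * g⁻¹) * m by group, ← hm]; group⟩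
  have hsq : ∀ {a : G}, orderOf a = 2 → a * a = 1 := fun {a} h => by
    rw [← sq, ← h]; exact pow_orderOf_eq_one a
  have hno : ∀ y u w : G, orderOf y = 3 → orderOf u = 2 → orderOf w = 2 → u * w = w * u →
      y * u = u * y → y * w = w * y → u = w := by
    intro y u w hy hu hw huw hyu hyw
    obtain ⟨g, hg⟩ := hconj u hu
    let c := MulAut.conj g
    have hcu : c u = t := hg
    have hcy : c y ∈ Subgroup.centralizer ({t} : Set G) := by
      rw [Subgroup.mem_centralizer_singleton_iff, ← hcu, ← map_mul, ← map_mul, hyu]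
    have hcw : c w ∈ Subgroup.centralizer ({t} : Set G) := by
      rw [Subgroup.mem_centralizer_singleton_iff, ← hcu, ← map_mul, ← map_mul, huw]
    rcases hy3 (c y) hcy (by rw [MulEquiv.orderOf_eq, hy]) (c w)
      (hw2 _ hcw (by rw [← map_mul, hsq hw, map_one]))
      (by rw [← map_mul, ← map_mul, hyw]) with h | h
    · rw [MulEquiv.map_eq_one_iff] at h
      simp [h] at hw
    · exact c.injective (hcu.trans h.symm)
  -- involutions of `M` lie in conjugates of `S` in `M`
  haveI : Fact (Nat.Prime 2) := ⟨Nat.prime_two⟩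
  have hdvd16 : ¬ 16 ∣ Nat.card G := by
    intro h
    obtain ⟨Q, hQ⟩ := Sylow.exists_subgroup_card_pow_prime 2
      ((show (16 : ℕ) = 2 ^ 4 by norm_num) ▸ h)
    obtain ⟨R, hR'⟩ := (IsPGroup.of_card hQ).exists_le_sylow
    have h2 : Nat.card Q ∣ Nat.card (R : Subgroup G) := Subgroup.card_dvd_of_le hR'
    rw [hQ, R.card_eq_multiplicity, ← D.S.card_eq_multiplicity, D.S_card] at h2
    norm_num at h2
  -- the Sylow subgroup is normal in `M`
  have hnorm : ∀ m ∈ M, ∀ s ∈ (D.S : Subgroup G), m * s * m⁻¹ ∈ (D.S : Subgroup G) := by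
    obtain ⟨Q, hQM, hQn, hQne, q, hqp, hQp, hQcomm⟩ : ∃ Q : Subgroup G, Q ≤ M ∧
        (∀ m ∈ M, ∀ a ∈ Q, m * a * m⁻¹ ∈ Q) ∧ Q ≠ ⊥ ∧ ∃ q : ℕ, q.Prime ∧ IsPGroup q Q ∧
        ∀ a ∈ Q, ∀ b ∈ Q, a * b = b * a := by
      haveI : Nontrivial M := ⟨⟨t, htM⟩, 1, fun e => by
        have := congrArg Subtype.val e
        simp only [OneMemClass.coe_one] at this
        simp [this] at ht⟩
      obtain ⟨A, hAn, hAne, hAc⟩ : ∃ A : Subgroup M, A.Normal ∧ A ≠ ⊥ ∧
          ∀ a ∈ A, ∀ b ∈ A, a * b = b * a := by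
        obtain ⟨n, hn⟩ := hsol.solvable
        have h0 : derivedSeries M 0 ≠ ⊥ := by rw [derivedSeries_zero]; exact top_ne_bot
        induction n with
        | zero => exact absurd hn h0
        | succ k ih =>
          by_cases hk : derivedSeries M k = ⊥
          · exact ih hk
          · refine ⟨derivedSeries M k, inferInstance, hk, fun a ha b hb => ?_⟩
            have := Subgroup.commutator_mem_commutator ha hb
            rw [← derivedSeries_succ, hn, Subgroup.mem_bot] at this
            exact commutatorElement_eq_one_iff_mul_comm.1 this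
      haveI := hAn
      haveI : Nontrivial A := (Subgroup.nontrivial_iff_ne_bot A).2 hAne
      obtain ⟨q, hqp, hqd⟩ := Nat.exists_prime_and_dvd
        (n := Nat.card A) Finite.one_lt_card.ne'
      haveI : Fact q.Prime := ⟨hqp⟩
      obtain ⟨P⟩ : Nonempty (Sylow q A) := inferInstance
      haveI : (P : Subgroup A).Normal := ⟨fun a ha g => by
        have : g * a = a * g := Subtype.ext (hAc g g.2 a a.2)
        rwa [this, mul_inv_cancel_right]⟩
      haveI := P.characteristic_of_normal inferInstance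
      let Q₁ : Subgroup M := (P : Subgroup A).map A.subtype
      have hQ₁ : Q₁.Normal := ConjAct.normal_of_characteristic_of_normal
      refine ⟨Q₁.map M.subtype, ?_, ?_, ?_, q, hqp, (P.2.map _).map _, ?_⟩
      · rintro _ ⟨a, -, rfl⟩; exact a.2
      · rintro m hm _ ⟨a, ha, rfl⟩
        exact ⟨_, hQ₁.conj_mem a ha ⟨m, hm⟩, rfl⟩
      · rw [Ne, Subgroup.map_eq_bot_iff_of_injective _ M.subtype_injective,
          Subgroup.map_eq_bot_iff_of_injective _ A.subtype_injective]
        exact P.ne_bot_of_dvd_card hqd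
      · rintro _ ⟨_, ⟨a, -, rfl⟩, rfl⟩ _ ⟨_, ⟨b, -, rfl⟩, rfl⟩
        exact congrArg Subtype.val (hAc a a.2 b b.2)
    by_cases hq2 : q = 2
    · subst hq2
      -- inside a conjugate of `S` in `M`
      obtain ⟨g, hgQ⟩ : ∃ m ∈ M, ∀ a ∈ Q, m * a * m⁻¹ ∈ (D.S : Subgroup G) := by
        obtain ⟨R, hR⟩ := (hQp.comap_subtype (K := M)).exists_le_sylow
        obtain ⟨m, hm⟩ := MulAction.exists_smul_eq M R (D.S.subtype hSM)
        refine ⟨m, m.2, fun a ha => ?_⟩
        have : MulAut.conj m (⟨a, hQM ha⟩ : M) ∈ ((m • R : Sylow 2 M) : Subgroup M) :=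
          ⟨_, hR ha, rfl⟩
        rw [hm] at this
        exact this
      have hQS : ∀ a ∈ Q, a ∈ (D.S : Subgroup G) := fun a ha => by
        have h1 := hgQ.2 _ (hQn g⁻¹ (inv_mem hgQ.1) a ha)
        simpa [mul_assoc] using h1
      obtain ⟨a, ha, ha1⟩ := (Subgroup.bot_or_exists_ne_one Q).resolve_left hQne
      obtain ⟨m₀, hm₀, ha'⟩ := hfus a (hQS a ha) ha1
      have hSQ : ∀ s ∈ (D.S : Subgroup G), s ∈ Q := by
        intro s hs
        by_cases hs1 : s = 1
        · rw [hs1]; exact one_mem Q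
        obtain ⟨m, hm, hms⟩ := hfus s hs hs1
        have := hQn (m * m₀⁻¹) (mul_mem hm (inv_mem hm₀)) a ha
        rw [← hms]
        convert this using 1
        rw [← ha']; group
      exact fun m hm s hs => hQS _ (hQn m hm s (hSQ s hs))
    · exfalso
      have hodd : ∀ a ∈ Q, a * a = 1 → a = 1 := by
        intro a ha h
        by_contra h1
        obtain ⟨k, hk⟩ := hQp ⟨a, ha⟩
        have hk' : a ^ q ^ k = 1 := by simpa using congrArg Subtype.val hk
        have := orderOf_two h h1 ▸ orderOf_dvd_of_pow_eq_one hk'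
        exact hq2 (((Nat.prime_dvd_prime_iff_eq Nat.prime_two hqp).1 (Nat.prime_two.dvd_of_dvd_pow this)).symm)
      -- three involutions forming a four-group
      obtain ⟨u, hu, hu1⟩ : ∃ u ∈ D.V, u ≠ 1 := by
        apply (Subgroup.nontrivial_iff_exists_ne_one D.V).1
        exact Finite.one_lt_card_iff_nontrivial.1 (by rw [D.four.card_four]; norm_num)
      have hju : D.j u ∈ (D.S : Subgroup G) := (D.S_cases _).2 ⟨u, hu, Or.inl rfl⟩
      have hju1 : D.j u ≠ 1 := fun e => hu1 (D.j_inj (e.trans (map_one D.j).symm))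
      have hjut : D.j u ≠ t := fun e => D.t_notMem ⟨u, e⟩
      have hfix : ∀ s ∈ (D.S : Subgroup G), (∀ a ∈ Q, s * a * s⁻¹ = a → a = 1) →
          ∀ a ∈ Q, s * a * s⁻¹ = a⁻¹ := by
        intro s hs hn a ha
        have hsa := hQn s (hSM hs) a ha
        have h1 := hn _ (mul_mem ha hsa) (by
          have hss := D.S_sq s hs
          have hinv : s⁻¹ = s := inv_eq_of_mul_eq_one_right hss
          have hsa' : s * a * s ∈ Q := by
            have h' := hsa
            rwa [hinv] at h'
          rw [hQcomm a ha _ hsa, hinv]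
          calc s * (s * a * s * a) * s = (s * s) * a * s * a * s := by group
            _ = a * (s * a * s) := by rw [hss]; group
            _ = s * a * s * a := by rw [hQcomm a ha _ hsa'])
        exact eq_inv_of_mul_eq_one_right h1
      obtain ⟨a, ha, ha1, s, hs, hs1, hsa⟩ : ∃ a ∈ Q, a ≠ 1 ∧ ∃ s ∈ (D.S : Subgroup G), s ≠ 1 ∧
          s * a * s⁻¹ = a := by
        by_contra! hne
        have key : ∀ s ∈ (D.S : Subgroup G), s ≠ 1 → ∀ a ∈ Q, s * a * s⁻¹ = a⁻¹ := fun s hs h1 =>
          hfix s hs fun a ha e => by_contra fun ha1 => hne a ha ha1 s hs h1 e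
        obtain ⟨a, ha, ha1⟩ := (Subgroup.bot_or_exists_ne_one Q).resolve_left hQne
        refine ha1 (hodd a ha ?_)
        have h3 := key (t * D.j u) (mul_mem D.t_mem hju) (fun e => hjut
          (by rw [← inv_eq_of_mul_eq_one_right e, inv_eq_of_mul_eq_one_right (D.S_sq t D.t_mem)])) a ha
        have h1 := key _ hju hju1 a ha
        have h2 := key t D.t_mem (fun e => by simp [e] at ht) a⁻¹ (inv_mem ha)
        rw [inv_inv] at h2
        have : t * D.j u * a * (t * D.j u)⁻¹ = a := by
          calc t * D.j u * a * (t * D.j u)⁻¹ = t * (D.j u * a * (D.j u)⁻¹) * t⁻¹ := by group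
            _ = a := by rw [h1, h2]
        rw [this] at h3
        rw [← sq, pow_two]
        exact mul_eq_one_iff_eq_inv.2 h3
      -- `a` has order three
      obtain ⟨g, hg⟩ := hconj s (orderOf_two (D.S_sq s hs) hs1)
      have hgaC : g * a * g⁻¹ ∈ Subgroup.centralizer ({t} : Set G) := by
        rw [Subgroup.mem_centralizer_singleton_iff, ← hg, conj_mul, conj_mul]
        rw [(mul_inv_eq_iff_eq_mul.1 hsa).symm]
      have ha3 : orderOf a = 3 := by
        obtain ⟨k, hk⟩ := hQp ⟨a, ha⟩
        have hk' : a ^ q ^ k = 1 := by simpa using congrArg Subtype.val hk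
        obtain ⟨i, -, hi⟩ := (Nat.dvd_prime_pow hqp).1 (orderOf_dvd_of_pow_eq_one hk')
        have h24 : orderOf a ∣ 24 := by
          rw [← hC24, ← Cfsg.Agent.H28.orderOf_conj_eq g a]
          exact Subgroup.orderOf_dvd_natCard _ hgaC
        have h1 : orderOf a ≠ 1 := fun e => ha1 (orderOf_eq_one_iff.1 e)
        have hco : Nat.Coprime (orderOf a) 8 := by
          rw [hi, show (8 : ℕ) = 2 ^ 3 by norm_num]
          exact Nat.Coprime.pow i 3 ((Nat.coprime_primes hqp Nat.prime_two).2 hq2)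
        have := hco.dvd_of_dvd_mul_left (show orderOf a ∣ 8 * 3 from h24)
        exact ((Nat.dvd_prime Nat.prime_three).1 this).resolve_left h1
      let K := Q ⊓ Subgroup.centralizer ({s} : Set G)
      have haK : a ∈ K := ⟨ha, Subgroup.mem_centralizer_singleton_iff.2
        (mul_inv_eq_iff_eq_mul.1 hsa).symm⟩
      have hKa : ∀ b ∈ K, b ∈ Subgroup.zpowers a := by
        have hKle : Nat.card K ∣ 24 := by
          let e := Subgroup.equivMapOfInjective K (MulAut.conj g).toMonoidHom (MulAut.conj g).injective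
          rw [Nat.card_congr e.toEquiv, ← hC24]
          refine Subgroup.card_dvd_of_le ?_
          rintro _ ⟨b, hb, rfl⟩
          rw [Subgroup.mem_centralizer_singleton_iff, ← hg]
          show MulAut.conj g b * MulAut.conj g s = MulAut.conj g s * MulAut.conj g b
          rw [← map_mul, ← map_mul, Subgroup.mem_centralizer_singleton_iff.1 hb.2]
        haveI : Fact q.Prime := ⟨hqp⟩
        obtain ⟨i, hi⟩ := IsPGroup.iff_card.1 (hQp.to_le (inf_le_left : K ≤ Q))
        have hco : Nat.Coprime (Nat.card K) 8 := by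
          rw [hi, show (8 : ℕ) = 2 ^ 3 by norm_num]
          exact Nat.Coprime.pow i 3 ((Nat.coprime_primes hqp Nat.prime_two).2 hq2)
        have h3 := Nat.le_of_dvd (by norm_num) (hco.dvd_of_dvd_mul_left (show Nat.card K ∣ 8 * 3 from hKle))
        have := Subgroup.eq_of_le_of_card_ge (Subgroup.zpowers_le.2 haK)
          (by rw [Nat.card_zpowers, ha3]; exact h3)
        exact fun b hb => this ▸ hb
      have hact : ∀ w ∈ (D.S : Subgroup G), w * a * w⁻¹ = a ∨ w * a * w⁻¹ = a⁻¹ := by
        intro w hw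
        have hwa : w * a * w⁻¹ ∈ K := by
          refine ⟨hQn w (hSM hw) a ha, Subgroup.mem_centralizer_singleton_iff.2 ?_⟩
          have hws := hScomm w hw s hs
          have has : a * s = s * a := Subgroup.mem_centralizer_singleton_iff.1 haK.2
          calc w * a * w⁻¹ * s = w * a * (w⁻¹ * s) := by group
            _ = w * a * (s * w⁻¹) := by rw [show w⁻¹ * s = s * w⁻¹ from (hScomm s hs _ (inv_mem hw)).symm]
            _ = w * (a * s) * w⁻¹ := by group
            _ = s * (w * a * w⁻¹) := by rw [has, ← mul_assoc w s, hws]; group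
        obtain ⟨k, hk⟩ := Subgroup.mem_zpowers_iff.1 (hKa _ hwa)
        rw [← zpow_mod_orderOf, ha3] at hk
        have h3 := Int.emod_lt_of_pos k (show (0 : ℤ) < 3 by norm_num)
        have h0 := Int.emod_nonneg k (show (3 : ℤ) ≠ 0 by norm_num)
        norm_cast at hk
        interval_cases h : k % 3
        · simp [eq_comm] at hk; exact absurd hk ha1
        · exact Or.inl (by simpa using hk.symm)
        · right
          rw [← hk]
          have : a ^ 3 = 1 := ha3 ▸ pow_orderOf_eq_one a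
          refine eq_inv_of_mul_eq_one_left ?_
          rw [zpow_ofNat, ← pow_succ, this]
      have hcases : ∀ w ∈ (D.S : Subgroup G), orderOf w = 2 → w * a = a * w → w = s := by
        intro w hw hw2' hwa
        exact hno a w s ha3 hw2' (orderOf_two (D.S_sq s hs) hs1) (hScomm w hw s hs) hwa.symm
          (mul_inv_eq_iff_eq_mul.1 hsa).symm
      obtain ⟨w₁, hw₁, w₂, hw₂, hne1, hne2, hne3, hne4, hne5⟩ : ∃ w₁ ∈ (D.S : Subgroup G),
          ∃ w₂ ∈ (D.S : Subgroup G), w₁ ≠ 1 ∧ w₁ ≠ s ∧ w₂ ≠ 1 ∧ w₂ ≠ s ∧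
            (w₁ * w₂ ≠ 1 ∧ w₁ * w₂ ≠ s) := by
        have hbig : ∀ B : Finset G, B.card ≤ 7 → ∃ w ∈ (D.S : Subgroup G), w ∉ B := by
          intro B hB
          by_contra! h
          have h1 : ((D.S : Subgroup G) : Set G).ncard ≤ (B : Set G).ncard :=
            Set.ncard_le_ncard (fun w hw => h w hw)
          rw [Set.ncard_coe_finset, ← Nat.card_coe_set_eq] at h1
          have : Nat.card ((D.S : Subgroup G) : Set G) = 8 := D.S_card
          omega
        obtain ⟨w₁, hw₁, hn₁⟩ := hbig {1, s} (le_trans (Finset.card_le_two) (by norm_num))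
        obtain ⟨w₂, hw₂, hn₂⟩ := hbig {1, s, w₁⁻¹, w₁⁻¹ * s} (le_trans Finset.card_le_four (by norm_num))
        simp only [Finset.mem_insert, Finset.mem_singleton, not_or] at hn₁ hn₂
        exact ⟨w₁, hw₁, w₂, hw₂, hn₁.1, hn₁.2, hn₂.1, hn₂.2.1,
          fun e => hn₂.2.2.1 (eq_inv_of_mul_eq_one_right e), fun e => hn₂.2.2.2 (by rw [← e]; simp)⟩
      have hne : ∀ w ∈ (D.S : Subgroup G), w ≠ 1 → w ≠ s → w * a * w⁻¹ = a⁻¹ := by
        intro w hw h1 h2
        refine (hact w hw).resolve_left fun e => h2 (hcases w hw (orderOf_two (D.S_sq w hw) h1) ?_)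
        exact mul_inv_eq_iff_eq_mul.1 e
      have h1 := hne w₁ hw₁ hne1 hne2
      have h2 := hne w₂ hw₂ hne3 hne4
      have h3 := hne (w₁ * w₂) (mul_mem hw₁ hw₂) hne5.1 hne5.2
      have h4 : w₁ * w₂ * a * (w₁ * w₂)⁻¹ = a := by
        calc w₁ * w₂ * a * (w₁ * w₂)⁻¹ = w₁ * (w₂ * a * w₂⁻¹) * w₁⁻¹ := by group
          _ = (w₁ * a * w₁⁻¹)⁻¹ := by rw [h2]; group
          _ = a := by rw [h1, inv_inv]
      rw [h4] at h3
      exact ha1 (hodd a ha (mul_eq_one_iff_eq_inv.2 h3))
  have hMS : ∀ s ∈ M, s * s = 1 → s ∈ (D.S : Subgroup G) := by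
    intro s hs hss
    by_cases h1 : s = 1
    · rw [h1]; exact one_mem _
    have hp : IsPGroup 2 (Subgroup.zpowers s) :=
      IsPGroup.of_card (n := 1) (by rw [Nat.card_zpowers, orderOf_two hss h1, pow_one])
    obtain ⟨R, hR⟩ := (hp.comap_subtype (K := M)).exists_le_sylow
    obtain ⟨m, hm⟩ := MulAction.exists_smul_eq M R (D.S.subtype hSM)
    have : MulAut.conj m (⟨s, hs⟩ : M) ∈ ((m • R : Sylow 2 M) : Subgroup M) :=
      ⟨_, hR (Subgroup.mem_zpowers s), rfl⟩
    rw [hm] at this
    have h2 := hnorm _ (inv_mem m.2) _ (show (m : G) * s * (m : G)⁻¹ ∈ (D.S : Subgroup G) from this)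
    simpa [mul_assoc] using h2
  have hset : {s : G | orderOf s = 2 ∧ s ∈ M} = ((D.S : Subgroup G) : Set G) \ {1} := by
    ext s
    constructor
    · rintro ⟨h2, hs⟩
      exact ⟨hMS s hs (hsq h2), fun e => by simp [Set.mem_singleton_iff.1 e] at h2⟩
    · rintro ⟨hs, h1⟩
      exact ⟨orderOf_two (D.S_sq s hs) h1, hSM hs⟩
  have h7 : Nat.card {s : G // orderOf s = 2 ∧ s ∈ M} = 7 := by
    show Nat.card ({s : G | orderOf s = 2 ∧ s ∈ M} : Set G) = 7
    rw [hset, Nat.card_coe_set_eq, Set.ncard_sdiff_singleton_of_mem (one_mem _), ← Nat.card_coe_set_eq]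
    have : Nat.card ((D.S : Subgroup G) : Set G) = 8 := D.S_card
    omega
  have hMcard : Nat.card M = 168 := by
    let φ : M → {s : G // orderOf s = 2 ∧ s ∈ M} := fun m =>
      ⟨(m : G) * t * (m : G)⁻¹, by rw [Cfsg.Agent.H28.orderOf_conj_eq, ht], mul_mem (mul_mem m.2 htM) (inv_mem m.2)⟩
    have hfib : ∀ s, Nat.card {m : M // φ m = s} = 24 := by
      rintro ⟨s, hs2, hsM⟩
      obtain ⟨m₀, hm₀, hm⟩ := hfus s (hMS s hsM (hsq hs2)) (fun e => by simp [e] at hs2)
      rw [← hC24]
      refine Nat.card_congr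
        { toFun := fun m => ⟨m₀⁻¹ * (m.1 : G), ?_⟩
          invFun := fun c => ⟨⟨m₀ * (c : G), mul_mem hm₀ (hC c.2)⟩, ?_⟩
          left_inv := fun m => by simp
          right_inv := fun c => by simp }
      · have e : ((m.1 : G)) * t * (m.1 : G)⁻¹ = s := congrArg Subtype.val m.2
        rw [Subgroup.mem_centralizer_singleton_iff]
        calc m₀⁻¹ * (m.1 : G) * t = m₀⁻¹ * ((m.1 : G) * t * (m.1 : G)⁻¹) * m.1 := by group
          _ = t * (m₀⁻¹ * m.1) := by
            rw [e.trans hm.symm]; group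
      · apply Subtype.ext
        show m₀ * (c : G) * t * (m₀ * (c : G))⁻¹ = s
        rw [mul_assoc m₀, Subgroup.mem_centralizer_singleton_iff.1 c.2, ← hm]
        group
    haveI := Fintype.ofFinite {s : G // orderOf s = 2 ∧ s ∈ M}
    rw [← Nat.card_congr (Equiv.sigmaFiberEquiv φ), Nat.card_sigma]
    simp only [hfib]
    rw [Finset.sum_const, Finset.card_univ, ← Nat.card_eq_fintype_card, h7]
    rfl
  have hcore : ∀ q : G, (∀ g : G, g⁻¹ * q * g ∈ M) → q = 1 := by
    intro q hq'
    have hn : q ∈ M.normalCore := fun g => by simpa using hq' g⁻¹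
    rcases Subgroup.Normal.eq_bot_or_eq_top (inferInstance : M.normalCore.Normal) with h | h
    · rwa [h, Subgroup.mem_bot] at hn
    · exact absurd (top_le_iff.1 (h ▸ M.normalCore_le)) hM.1
  exact ⟨hM, hC, hcore, ht, hC24, hMcard, h7, hconj, hno, htwo, hdvd16,
    fun a ha b hb ha2 hb2 => hScomm a (hMS a ha (hsq ha2)) b (hMS b hb (hsq hb2))⟩

end Cfsg.Agent.H23.S1245.Three
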