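import Cfsg.Agent.H23.S1245.ThreeBase
import Cfsg.Agent.S1224
import Cfsg.Agent.S1225

/-!
# A Janko–Ree configuration over the field with three elements: the degree is nine
-/

set_option autoImplicit false
set_option linter.style.haveILetI false

namespace Cfsg.Agent.H23.S1245.Three

universe u

/-- The order of a Sylow subgroup. -/
theorem sylow_card_eq {K : Type*} [Group K] [Finite K] {p : ℕ} [hp : Fact p.Prime] (P : Sylow p K)
    {n r : ℕ} (h : Nat.card K = p ^ n * r) (hr : ¬ p ∣ r) : Nat.card P = p ^ n := by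
  rw [P.card_eq_multiplicity, h, Nat.factorization_mul (pow_ne_zero _ hp.out.ne_zero)
    (fun e => hr (by rw [e]; exact dvd_zero p)), Finsupp.add_apply, Nat.factorization_eq_zero_of_not_dvd hr,
    add_zero, hp.out.factorization_pow, Finsupp.single_eq_same]

variable {G : Type u} [Group G]

/-- Fixed cosets. -/
theorem fix_iff {M : Subgroup G} (d g : G) : d • (g : G ⧸ M) = (g : G ⧸ M) ↔ g⁻¹ * d * g ∈ M := by
  rw [MulAction.Quotient.smul_coe, smul_eq_mul, QuotientGroup.eq, ← M.inv_mem_iff]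
  simp [mul_assoc]

variable [Finite G]

/-- Cyclic subgroups of prime order of a Sylow size are conjugate. -/
theorem exists_conj_zpowers {K : Subgroup G} {p : ℕ} [hp : Fact p.Prime] {r : ℕ}
    (hK : Nat.card K = p * r) (hr : ¬ p ∣ r) {a b : G} (ha : a ∈ K) (hb : b ∈ K)
    (hoa : orderOf a = p) (hob : orderOf b = p) : ∃ k ∈ K, k * a * k⁻¹ ∈ Subgroup.zpowers b := by
  have key : ∀ c : K, orderOf c = p → ∃ R : Sylow p K, (R : Subgroup K) = Subgroup.zpowers c := by
    intro c hc
    obtain ⟨R, hR⟩ := (IsPGroup.of_card (p := p) (n := 1) (G := Subgroup.zpowers c)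
      (by rw [Nat.card_zpowers, hc, pow_one])).exists_le_sylow
    refine ⟨R, (Subgroup.eq_of_le_of_card_ge hR ?_).symm⟩
    rw [Nat.card_zpowers, hc, sylow_card_eq R (n := 1) (by rw [pow_one, hK]) hr, pow_one]
  obtain ⟨R₁, h₁⟩ := key ⟨a, ha⟩ (by rw [← hoa, ← Subgroup.orderOf_coe])
  obtain ⟨R₂, h₂⟩ := key ⟨b, hb⟩ (by rw [← hob, ← Subgroup.orderOf_coe])
  obtain ⟨k, hk⟩ := MulAction.exists_smul_eq K R₁ R₂
  have : MulAut.conj k (⟨a, ha⟩ : K) ∈ (R₂ : Subgroup K) := by
    rw [← hk]
    exact ⟨_, h₁ ▸ Subgroup.mem_zpowers _, rfl⟩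
  rw [h₂, Subgroup.mem_zpowers_iff] at this
  obtain ⟨i, hi⟩ := this
  exact ⟨k, k.2, Subgroup.mem_zpowers_iff.2 ⟨i, by simpa using congrArg Subtype.val hi⟩⟩

/-- An element conjugating a generator of a cyclic subgroup into it normalizes it. -/
theorem mem_normalizer_zpowers {d k : G} (h : k * d * k⁻¹ ∈ Subgroup.zpowers d) :
    k ∈ Subgroup.normalizer (Subgroup.zpowers d : Set G) := by
  have hmap : (Subgroup.zpowers d).map (MulAut.conj k).toMonoidHom = Subgroup.zpowers d := by
    refine Subgroup.eq_of_le_of_card_ge ?_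
      (le_of_eq (Nat.card_congr (Subgroup.equivMapOfInjective _ _ (MulAut.conj k).injective).toEquiv))
    rw [MonoidHom.map_zpowers, Subgroup.zpowers_le]
    exact h
  rw [Subgroup.mem_normalizer_iff]
  intro x
  constructor
  · intro hx
    rw [← hmap]
    exact ⟨x, hx, rfl⟩
  · intro hx
    rw [← hmap] at hx
    obtain ⟨y, hy, e⟩ := hx
    exact (MulAut.conj k).injective e ▸ hy

/-- In a group of order dividing 21 the elements of order seven generate one subgroup. -/
theorem zpowers_eq_of_dvd {D : Subgroup G} (h : Nat.card D ∣ 21) {a b : G} (ha : a ∈ D)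
    (hb : b ∈ D) (hoa : orderOf a = 7) (hob : orderOf b = 7) : b ∈ Subgroup.zpowers a := by
  haveI : Fact (Nat.Prime 7) := ⟨by norm_num⟩
  by_contra hba
  have hdisj : ∀ g ∈ Subgroup.zpowers a, g ∈ Subgroup.zpowers b → g = 1 := by
    intro g hga hgb
    by_contra hg1
    apply hba
    have h1 : orderOf g = 7 := orderOf_eq_prime
      (by obtain ⟨i, rfl⟩ := Subgroup.mem_zpowers_iff.1 hga
          rw [← zpow_natCast, ← zpow_mul, mul_comm, zpow_mul, zpow_natCast, ← hoa, pow_orderOf_eq_one,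
            one_zpow]) hg1
    have h2 := Subgroup.eq_of_le_of_card_ge (Subgroup.zpowers_le.2 hgb)
      (by rw [Nat.card_zpowers, Nat.card_zpowers, h1, hob])
    have h3 : Subgroup.zpowers g ≤ Subgroup.zpowers a := Subgroup.zpowers_le.2 hga
    exact h3 (h2 ▸ Subgroup.mem_zpowers b)
  let f : Subgroup.zpowers a × Subgroup.zpowers b → D := fun x =>
    ⟨(x.1 : G) * x.2, mul_mem (Subgroup.zpowers_le.2 ha x.1.2) (Subgroup.zpowers_le.2 hb x.2.2)⟩
  have hf : Function.Injective f := by
    rintro ⟨x, y⟩ ⟨x', y'⟩ e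
    have e' : (x : G) * y = x' * y' := congrArg Subtype.val e
    have h1 : (x' : G)⁻¹ * x = y' * (y : G)⁻¹ := by
      rw [eq_mul_inv_iff_mul_eq, mul_assoc, e', inv_mul_cancel_left]
    have h2 := hdisj _ (mul_mem (inv_mem x'.2) x.2) (h1 ▸ mul_mem y'.2 (inv_mem y.2))
    have hx : x = x' := Subtype.ext (inv_mul_eq_one.1 h2).symm
    subst hx
    exact Prod.ext rfl (Subtype.ext (mul_left_cancel e'))
  have := Nat.card_le_card_of_injective f hf
  rw [Nat.card_prod, Nat.card_zpowers, Nat.card_zpowers, hoa, hob] at this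
  have := Nat.le_of_dvd (by norm_num) h
  omega

variable {M : Subgroup G} {t : G}

omit [Finite G] in
/-- No element of order seven commutes with an involution. -/
theorem Ctx.seven_inv (h : Ctx M t) {d s : G} (hd : orderOf d = 7) (hs : orderOf s = 2) :
    d * s ≠ s * d := by
  intro e
  obtain ⟨g, hg⟩ := h.conj_t s hs
  have : MulAut.conj g d ∈ Subgroup.centralizer ({t} : Set G) := by
    rw [Subgroup.mem_centralizer_singleton_iff, ← hg]
    show MulAut.conj g d * MulAut.conj g s = MulAut.conj g s * MulAut.conj g d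
    rw [← map_mul, ← map_mul, e]
  have := h.cardC ▸ Subgroup.orderOf_dvd_natCard _ this
  rw [MulEquiv.orderOf_eq, hd] at this
  norm_num at this

/-- An odd intersection of two point stabilisers. -/
theorem Ctx.inter_dvd (h : Ctx M t) {g : G} (hg : g ∉ M) :
    Nat.card ↥(M ⊓ M.map (MulAut.conj g).toMonoidHom) ∣ 21 := by
  have h1 : Nat.card ↥(M ⊓ M.map (MulAut.conj g).toMonoidHom) ∣ 8 * 21 := by
    rw [show 8 * 21 = Nat.card M by rw [h.cardM]]
    exact Subgroup.card_dvd_of_le inf_le_left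
  have h2 := Nat.Coprime.pow_right 3 (Nat.coprime_two_right.2 (h.se.2.2 g hg))
  exact (show Nat.Coprime _ 8 from h2).dvd_of_dvd_mul_left h1

/-- Each other point is fixed by an element of order seven of `M`, and by one subgroup only. -/
theorem Ctx.point_seven (h : Ctx M t) {g : G} (hg : g ∉ M) :
    (∃ d ∈ M, orderOf d = 7 ∧ d • (g : G ⧸ M) = (g : G ⧸ M)) ∧
      ∀ d ∈ M, ∀ d' ∈ M, orderOf d = 7 → orderOf d' = 7 → d • (g : G ⧸ M) = (g : G ⧸ M) →
        d' • (g : G ⧸ M) = (g : G ⧸ M) → d' ∈ Subgroup.zpowers d := by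
  haveI : Fact (Nat.Prime 7) := ⟨by norm_num⟩
  refine ⟨?_, fun d hd d' hd' h7 h7' hf hf' => ?_⟩
  · have hne : ((1 : G) : G ⧸ M) ≠ (g : G ⧸ M) := fun e => hg (by simpa using QuotientGroup.eq.1 e)
    have hsw := Cfsg.Agent.S1224.result M h.se _ _ hne
    rw [h.inv7] at hsw
    obtain ⟨⟨u, hu, hug⟩⟩ := (Nat.card_pos_iff.1 (lt_of_lt_of_eq (by norm_num : (0 : ℕ) < 7) hsw.symm)).1
    have huM : u ∉ M := by
      intro hu'
      apply hne
      rw [← hug]
      exact ((fix_iff u 1).2 (by simpa using hu')).symm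
    set D₀ := M ⊓ M.map (MulAut.conj u).toMonoidHom with hD₀
    have htM : t ∈ M := h.cent_le (Subgroup.mem_centralizer_singleton_iff.2 rfl)
    let φ : D₀ → {s : G // orderOf s = 2 ∧ s ∈ M} := fun x =>
      ⟨(x : G) * t * (x : G)⁻¹, by rw [Cfsg.Agent.H28.orderOf_conj_eq, h.t_order],
        mul_mem (mul_mem x.2.1 htM) (inv_mem x.2.1)⟩
    have hφ : Function.Surjective φ := by
      rintro ⟨s, hs, hsM⟩
      obtain ⟨x, hx, e⟩ := (Cfsg.Agent.S1225.result M h.se u hu huM t s h.t_order htM hs hsM).1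
      exact ⟨⟨x, hx⟩, Subtype.ext e⟩
    have h7le := Nat.card_le_card_of_surjective φ hφ
    rw [h.inv7] at h7le
    have hdvd := h.inter_dvd huM
    have h7 : 7 ∣ Nat.card D₀ := by
      have := Nat.le_of_dvd (by norm_num) hdvd
      rw [← hD₀] at hdvd this
      interval_cases hc : Nat.card D₀ <;> omega
    obtain ⟨d, hd⟩ := exists_prime_orderOf_dvd_card' 7 h7
    refine ⟨d, d.2.1, by rwa [Subgroup.orderOf_coe], ?_⟩
    have hug' : ((u : G) : G ⧸ M) = (g : G ⧸ M) := by
      rw [← hug, MulAction.Quotient.smul_coe, smul_eq_mul, mul_one]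
    rw [← hug', fix_iff]
    exact Cfsg.Agent.H28.mem_map_conj_iff.1 d.2.2
  · exact zpowers_eq_of_dvd (h.inter_dvd hg)
      ⟨hd, Cfsg.Agent.H28.mem_map_conj_iff.2 ((fix_iff d g).1 hf)⟩
      ⟨hd', Cfsg.Agent.H28.mem_map_conj_iff.2 ((fix_iff d' g).1 hf')⟩ h7 h7'

/-- The degree is nine and no element of order three commutes with one of order seven. -/
theorem Ctx.degree (h : Ctx M t) :
    M.index = 9 ∧ ∀ d q : G, orderOf d = 7 → orderOf q = 3 → d * q ≠ q * d := by
  classical
  haveI : Fact (Nat.Prime 7) := ⟨by norm_num⟩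
  haveI : Fact (Nat.Prime 2) := ⟨Nat.prime_two⟩
  set a₀ : G ⧸ M := ((1 : G) : G ⧸ M) with ha₀
  have htM : t ∈ M := h.cent_le (Subgroup.mem_centralizer_singleton_iff.2 rfl)
  have hfix0 : ∀ m : G, m • a₀ = a₀ ↔ m ∈ M := fun m => by
    rw [ha₀, fix_iff, inv_one, one_mul, mul_one]
  have h168 : Nat.card M = 7 ^ 1 * 24 := by rw [h.cardM]; norm_num
  obtain ⟨P₀⟩ : Nonempty (Sylow 7 M) := inferInstance
  have hP₀ : Nat.card P₀ = 7 := sylow_card_eq P₀ h168 (by norm_num)
  obtain ⟨d₀, hd₀P, hd₀⟩ : ∃ d ∈ (P₀ : Subgroup M), orderOf d = 7 := by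
    obtain ⟨d, hd⟩ := exists_prime_orderOf_dvd_card' 7 (G := (P₀ : Subgroup M)) (dvd_of_eq hP₀.symm)
    exact ⟨d, d.2, by rwa [Subgroup.orderOf_coe]⟩
  have hPz : (P₀ : Subgroup M) = Subgroup.zpowers d₀ :=
    (Subgroup.eq_of_le_of_card_ge (Subgroup.zpowers_le.2 hd₀P)
      (le_of_eq (by rw [Nat.card_zpowers, hd₀]; exact hP₀))).symm
  set d : G := (d₀ : G) with hdd
  have hd7 : orderOf d = 7 := by rw [hdd, Subgroup.orderOf_coe, hd₀]
  have hdM : d ∈ M := d₀.2
  set N := Subgroup.normalizer (Subgroup.zpowers d : Set G) with hN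
  have hNd : ∀ k ∈ N, k * d * k⁻¹ ∈ Subgroup.zpowers d := fun k hk =>
    (Subgroup.mem_normalizer_iff.1 hk d).1 (Subgroup.mem_zpowers d)
  -- the normalizer in `M`
  set N₀ := Subgroup.normalizer ((P₀ : Subgroup M) : Set M) with hN₀
  have hN₀iff : ∀ m : M, m ∈ N₀ ↔ (m : G) ∈ N := by
    intro m
    have hz : ∀ y : M, y ∈ (P₀ : Subgroup M) ↔ (y : G) ∈ Subgroup.zpowers d := by
      intro y
      rw [hPz, Subgroup.mem_zpowers_iff, Subgroup.mem_zpowers_iff]
      refine exists_congr fun i => ?_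
      rw [hdd, ← SubgroupClass.coe_zpow, Subtype.ext_iff]
    constructor
    · intro hm
      refine mem_normalizer_zpowers ?_
      have := (hz _).1 ((Subgroup.mem_normalizer_iff.1 hm d₀).1 hd₀P)
      simpa [hdd] using this
    · intro hm
      rw [hN₀, Subgroup.mem_normalizer_iff]
      intro y
      rw [hz, hz]
      exact Subgroup.mem_normalizer_iff.1 hm y
  have hsyl8 : Nat.card (Sylow 7 M) = 8 := by
    have h1 : Nat.card (Sylow 7 M) ∣ 24 := by
      have e := (P₀ : Subgroup M).index_mul_card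
      rw [hP₀, h.cardM] at e
      have : (P₀ : Subgroup M).index = 24 := by omega
      exact this ▸ P₀.card_dvd_index
    have h2 := card_sylow_modEq_one 7 M
    have h3 : Nat.card (Sylow 7 M) ≠ 1 := by
      intro e
      obtain ⟨hu, -⟩ := Nat.card_eq_one_iff_unique.1 e
      haveI := hu
      have hPn : ∀ m : M, m ∈ N₀ := fun m => Sylow.smul_eq_iff_mem_normalizer.1 (Subsingleton.elim _ _)
      have key : ∀ s : G, orderOf s = 2 → s ∈ M → s * d * s⁻¹ = d⁻¹ := by
        intro s hs2 hsM'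
        obtain ⟨j, hj⟩ := Subgroup.mem_zpowers_iff.1 (hNd s ((hN₀iff ⟨s, hsM'⟩).1 (hPn _)))
        have hss : s * s = 1 := Cfsg.Agent.H28.mul_self_of_orderOf_two hs2
        have hsi : s⁻¹ = s := inv_eq_of_mul_eq_one_right hss
        have hjj : d ^ (j * j) = d := by
          rw [zpow_mul, hj, conj_zpow, hj, hsi]
          calc s * (s * d * s) * s = (s * s) * d * (s * s) := by group
            _ = d := by rw [hss, one_mul, mul_one]
        have hdiv : ((7 : ℕ) : ℤ) ∣ j * j - 1 := by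
          rw [← hd7, orderOf_dvd_sub_iff_zpow_eq_zpow, hjj, zpow_one]
        rw [show j * j - 1 = (j - 1) * (j + 1) by ring] at hdiv
        rcases (Nat.prime_iff_prime_int.1 (by norm_num : Nat.Prime 7)).dvd_mul.1 hdiv with h' | h'
        · exfalso
          refine h.seven_inv hd7 hs2 ?_
          have e : d ^ j = d ^ (1 : ℤ) := orderOf_dvd_sub_iff_zpow_eq_zpow.1 (by rw [hd7]; exact h')
          rw [zpow_one, hj] at e
          exact (mul_inv_eq_iff_eq_mul.1 e).symm
        · have e : d ^ j = d ^ (-1 : ℤ) := orderOf_dvd_sub_iff_zpow_eq_zpow.1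
            (by rw [hd7, sub_neg_eq_add]; exact h')
          rw [← hj, e, zpow_neg_one]
      set t' := d * t * d⁻¹ with ht'
      have ht'2 : orderOf t' = 2 := by rw [ht', Cfsg.Agent.H28.orderOf_conj_eq, h.t_order]
      have ht'M : t' ∈ M := mul_mem (mul_mem hdM htM) (inv_mem hdM)
      have htt : t * t = 1 := Cfsg.Agent.H28.mul_self_of_orderOf_two h.t_order
      have hw : orderOf (t * t') = 2 := by
        refine orderOf_two ?_ fun e => ?_
        · calc t * t' * (t * t') = t * (t' * t) * t' := by group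
            _ = (t * t) * (t' * t') := by rw [← h.inv_comm t htM t' ht'M h.t_order ht'2]; group
            _ = 1 := by rw [htt, Cfsg.Agent.H28.mul_self_of_orderOf_two ht'2, mul_one]
        · have e' : t' = t := mul_left_cancel (e.trans htt.symm)
          exact h.seven_inv hd7 h.t_order (mul_inv_eq_iff_eq_mul.1 (ht' ▸ e'))
      refine h.seven_inv hd7 hw (mul_inv_eq_iff_eq_mul.1 ?_).symm
      calc t * t' * d * (t * t')⁻¹ = t * (t' * d * t'⁻¹) * t⁻¹ := by group
        _ = (t * d * t⁻¹)⁻¹ := by rw [key t' ht'2 ht'M]; group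
        _ = d := by rw [key t h.t_order htM, inv_inv]
    have h4 := Nat.le_of_dvd (by norm_num) h1
    unfold Nat.ModEq at h2
    interval_cases hc : Nat.card (Sylow 7 M) <;> omega
  have hN₀card : Nat.card N₀ = 21 := by
    have e := N₀.index_mul_card
    have e3 : N₀.index = 8 := hsyl8 ▸ P₀.card_eq_index_normalizer.symm
    rw [e3, h.cardM] at e
    omega
  -- the points fixed by `d`
  set Fx : Set (G ⧸ M) := {b | d • b = b} with hFx
  have hFx0 : a₀ ∈ Fx := (hfix0 d).2 hdM
  have hzfix : ∀ b ∈ Fx, ∀ y ∈ Subgroup.zpowers d, y • b = b := fun b hb y hy =>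
    MulAction.mem_stabilizer_iff.1 (Subgroup.zpowers_le.2 (MulAction.mem_stabilizer_iff.2 hb) hy)
  have hNFx : ∀ k ∈ N, ∀ b ∈ Fx, k • b ∈ Fx := by
    intro k hk b hb
    have := hzfix b hb _ (hNd k⁻¹ (inv_mem hk))
    rw [inv_inv, mul_smul, mul_smul] at this
    exact inv_smul_eq_iff.1 this
  have horb : MulAction.orbit N a₀ = Fx := by
    ext b
    constructor
    · rintro ⟨k, rfl⟩
      exact hNFx k k.2 a₀ hFx0
    · intro hb
      induction b using QuotientGroup.induction_on with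
      | H g =>
        have h' : g⁻¹ * d * g ∈ M := (fix_iff d g).1 hb
        obtain ⟨m, hm, hmd⟩ := exists_conj_zpowers (r := 24) (p := 7) (by rw [h.cardM]) (by norm_num)
          h' hdM (by
            have := Cfsg.Agent.H28.orderOf_conj_eq g⁻¹ d
            rw [inv_inv] at this
            rw [this, hd7]) hd7
        have hk : m * g⁻¹ ∈ N := mem_normalizer_zpowers (by
          rw [show m * g⁻¹ * d * (m * g⁻¹)⁻¹ = m * (g⁻¹ * d * g) * m⁻¹ by group]
          exact hmd)
        refine ⟨⟨_, inv_mem hk⟩, ?_⟩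
        show (m * g⁻¹)⁻¹ • a₀ = _
        rw [ha₀, MulAction.Quotient.smul_coe, smul_eq_mul, mul_one, QuotientGroup.eq]
        simpa using hm
  have hstab : Nat.card (MulAction.stabilizer N a₀) = 21 := by
    rw [← hN₀card]
    refine Nat.card_congr
      { toFun := fun k => ⟨⟨(k.1 : G), (hfix0 _).1 k.2⟩, (hN₀iff _).2 k.1.2⟩
        invFun := fun m => ⟨⟨(m.1 : G), (hN₀iff _).1 m.2⟩, (hfix0 _).2 m.1.2⟩
        left_inv := fun _ => rfl
        right_inv := fun _ => rfl }
  set f := Nat.card Fx with hf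
  have hNcard : Nat.card N = f * 21 := by
    rw [← (MulAction.stabilizer N a₀).index_mul_card, hstab, MulAction.index_stabilizer, horb,
      ← Nat.card_coe_set_eq]
  have hodd21 : ∀ k ∈ N, k ∈ M → orderOf k ≠ 2 := by
    intro k hk hkM h2
    have := Subgroup.orderOf_dvd_natCard N₀ ((hN₀iff ⟨k, hkM⟩).2 hk)
    rw [hN₀card, ← Subgroup.orderOf_coe, h2] at this
    norm_num at this
  have hsplit : ∀ b : G ⧸ M, b ≠ a₀ → ∃ Q : Sylow 7 M, ∀ y ∈ (Q : Subgroup M), (y : G) • b = b := by
    intro b hb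
    induction b using QuotientGroup.induction_on with
    | H g =>
      have hg : g ∉ M := fun hg => hb (QuotientGroup.eq.2 (by simpa using inv_mem hg))
      obtain ⟨⟨e, heM, he7, hef⟩, -⟩ := h.point_seven hg
      obtain ⟨Q, hQ⟩ := (IsPGroup.of_card (p := 7) (n := 1) (G := Subgroup.zpowers (⟨e, heM⟩ : M))
        (by rw [Nat.card_zpowers, ← Subgroup.orderOf_coe, pow_one]; exact he7)).exists_le_sylow
      refine ⟨Q, fun y hy => ?_⟩
      have hQe := Subgroup.eq_of_le_of_card_ge hQ (le_of_eq (by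
        rw [Nat.card_zpowers, ← Subgroup.orderOf_coe]
        exact (sylow_card_eq Q h168 (by norm_num)).trans he7.symm))
      rw [← hQe, Subgroup.mem_zpowers_iff] at hy
      obtain ⟨i, rfl⟩ := hy
      exact MulAction.mem_stabilizer_iff.1 (zpow_mem (MulAction.mem_stabilizer_iff.2 hef) i)
  choose Φ hΦ using fun b : {b : G ⧸ M // b ≠ a₀} => hsplit b b.2
  have huniq : ∀ (b : {b : G ⧸ M // b ≠ a₀}) (Q : Sylow 7 M),
      Φ b = Q ↔ ∀ y ∈ (Q : Subgroup M), (y : G) • (b : G ⧸ M) = b := by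
    refine fun b Q => ⟨fun e => e ▸ hΦ b, fun hQ => ?_⟩
    obtain ⟨b, hb⟩ := b
    induction b using QuotientGroup.induction_on with
    | H g =>
      have hg : g ∉ M := fun hg => hb (QuotientGroup.eq.2 (by simpa using inv_mem hg))
      refine Sylow.ext (Subgroup.eq_of_le_of_card_ge ?_ (le_of_eq ?_))
      · intro y hy
        obtain ⟨q, hq⟩ := exists_prime_orderOf_dvd_card' 7 (G := (Q : Subgroup M))
          (dvd_of_eq (sylow_card_eq Q h168 (by norm_num)).symm)
        by_cases hy1 : y = 1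
        · rw [hy1]; exact one_mem _
        have hy7 : orderOf (y : G) = 7 := by
          rw [Subgroup.orderOf_coe]
          refine orderOf_eq_prime ?_ hy1
          have hd := Subgroup.orderOf_dvd_natCard _ hy
          rw [show Nat.card (Φ ⟨(g : G ⧸ M), hb⟩ : Subgroup M) = 7 from
            sylow_card_eq (Φ ⟨(g : G ⧸ M), hb⟩) h168 (by norm_num)] at hd
          exact orderOf_dvd_iff_pow_eq_one.1 hd
        have hyq := (h.point_seven hg).2 (q.1 : G) q.1.2 y y.2
          (by rw [Subgroup.orderOf_coe, Subgroup.orderOf_coe, hq]) hy7 (hQ q.1 q.2) (hΦ _ y hy)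
        obtain ⟨i, hi⟩ := Subgroup.mem_zpowers_iff.1 hyq
        have hyi : q.1 ^ i = y := Subtype.ext (by rw [SubgroupClass.coe_zpow]; exact hi)
        exact hyi ▸ zpow_mem q.2 i
      · rw [sylow_card_eq Q h168 (by norm_num),
          sylow_card_eq (Φ ⟨(g : G ⧸ M), hb⟩) h168 (by norm_num)]
  have hfib : ∀ Q : Sylow 7 M, Nat.card {b : {b : G ⧸ M // b ≠ a₀} // Φ b = Q} = f - 1 := by
    intro Q
    obtain ⟨m, hm⟩ := MulAction.exists_smul_eq M P₀ Q
    have hmem : ∀ y : M, y ∈ (Q : Subgroup M) ↔ ∃ z ∈ (P₀ : Subgroup M), m * z * m⁻¹ = y := by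
      intro y
      rw [← hm]
      exact Subgroup.mem_map
    have hPd : ∀ b : G ⧸ M, (∀ z ∈ (P₀ : Subgroup M), (z : G) • b = b) ↔ b ∈ Fx := by
      intro b
      refine ⟨fun hb => hb d₀ hd₀P, fun hb z hz => ?_⟩
      rw [hPz, Subgroup.mem_zpowers_iff] at hz
      obtain ⟨i, rfl⟩ := hz
      rw [SubgroupClass.coe_zpow]
      exact hzfix b hb _ (zpow_mem (Subgroup.mem_zpowers _) i)
    have hm0 : (m : G) • a₀ = a₀ := (hfix0 m).2 m.2
    have hmi : (m : G)⁻¹ • a₀ = a₀ := inv_smul_eq_iff.2 hm0.symm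
    have hcardF : Nat.card ↥(Fx \ {a₀}) = f - 1 := by
      rw [Nat.card_coe_set_eq, Set.ncard_sdiff_singleton_of_mem hFx0, hf, Nat.card_coe_set_eq]
    rw [← hcardF]
    refine Nat.card_congr
      { toFun := fun b => ⟨(m : G)⁻¹ • (b.1 : G ⧸ M), ?_, ?_⟩
        invFun := fun c => ⟨⟨(m : G) • (c : G ⧸ M), ?_⟩, ?_⟩
        left_inv := fun b => by simp
        right_inv := fun c => by simp }
    · refine (hPd _).1 fun z hz => ?_
      have := (huniq b.1 Q).1 b.2 _ ((hmem _).2 ⟨z, hz, rfl⟩)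
      simp only [Subgroup.coe_mul, Subgroup.coe_inv, mul_smul] at this
      exact eq_inv_smul_iff.2 this
    · intro e
      exact b.1.2 (by simpa [hm0] using congrArg ((m : G) • ·) (Set.mem_singleton_iff.1 e))
    · intro e
      exact c.2.2 (by simpa [hmi] using congrArg ((m : G)⁻¹ • ·) e)
    · rw [huniq]
      intro y hy
      obtain ⟨z, hz, rfl⟩ := (hmem y).1 hy
      simp only [Subgroup.coe_mul, Subgroup.coe_inv, mul_smul, inv_smul_smul]
      rw [(hPd _).2 c.2.1 z hz]
  have hn : M.index = 8 * (f - 1) + 1 := by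
    haveI := Fintype.ofFinite (Sylow 7 M)
    have e1 : Nat.card {b : G ⧸ M // b ≠ a₀} = 8 * (f - 1) := by
      rw [← Nat.card_congr (Equiv.sigmaFiberEquiv Φ), Nat.card_sigma]
      simp only [hfib]
      rw [Finset.sum_const, Finset.card_univ, ← Nat.card_eq_fintype_card, hsyl8, smul_eq_mul]
    have e2 : Nat.card {b : G ⧸ M // b ≠ a₀} = M.index - 1 := by
      rw [show Nat.card {b : G ⧸ M // b ≠ a₀} = Nat.card ↥(Set.univ \ {a₀} : Set (G ⧸ M)) from
        Nat.card_congr (Equiv.subtypeEquivRight fun b => by simp),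
        Nat.card_coe_set_eq, Set.ncard_sdiff_singleton_of_mem (Set.mem_univ a₀), Set.ncard_univ,
        Subgroup.index_eq_card]
    have : M.index ≠ 0 := Subgroup.index_ne_zero_of_finite
    omega
  have hf2 : 2 ≤ f := by
    by_contra hlt
    have : M.index = 1 := by omega
    exact h.se.1 (Subgroup.index_eq_one.1 this)
  -- involutions of the normalizer
  have hswap : ∀ i : G, orderOf i = 2 → ∀ b ∈ Fx, b ≠ a₀ → i • a₀ = b → i ∈ N := by
    intro i hi b hb hba hib
    have hii := Cfsg.Agent.H28.mul_self_of_orderOf_two hi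
    have hib' : i • b = a₀ := by rw [← hib, smul_smul, hii, one_smul]
    have hiinv : i⁻¹ = i := inv_eq_of_mul_eq_one_right hii
    have he1 : (i * d * i⁻¹) • b = b := by
      rw [hiinv, mul_smul, mul_smul, hib', show d • a₀ = a₀ from hFx0, hib]
    have he2 : (i * d * i⁻¹) • a₀ = a₀ := by
      rw [hiinv, mul_smul, mul_smul, hib, show d • b = b from hb, hib']
    induction b using QuotientGroup.induction_on with
    | H g =>
      have hg : g ∉ M := fun hg => hba (QuotientGroup.eq.2 (by simpa using inv_mem hg))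
      exact mem_normalizer_zpowers ((h.point_seven hg).2 d hdM _ ((hfix0 _).1 he2) hd7
        (by rw [Cfsg.Agent.H28.orderOf_conj_eq, hd7]) hb he1)
  have hmove : ∀ i : G, i ∈ N → orderOf i = 2 → i • a₀ ∈ Fx \ {a₀} := fun i hi h2 =>
    ⟨hNFx i hi a₀ hFx0, fun e => hodd21 i hi ((hfix0 i).1 (Set.mem_singleton_iff.1 e)) h2⟩
  let I := {i : G // i ∈ N ∧ orderOf i = 2}
  have hI : Nat.card I = (f - 1) * 7 := by
    let ψ : I → ↥(Fx \ {a₀}) := fun i => ⟨_, hmove i.1 i.2.1 i.2.2⟩
    haveI := Fintype.ofFinite ↥(Fx \ {a₀})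
    have hψ : ∀ b, Nat.card {i : I // ψ i = b} = 7 := by
      intro b
      have hne : a₀ ≠ (b : G ⧸ M) := fun e => b.2.2 e.symm
      rw [← h.inv7, ← Cfsg.Agent.S1224.result M h.se a₀ b hne]
      refine Nat.card_congr
        { toFun := fun i => ⟨i.1.1, i.1.2.2, congrArg Subtype.val i.2⟩
          invFun := fun i => ⟨⟨i.1, hswap i.1 i.2.1 b b.2.1 b.2.2 i.2.2, i.2.1⟩, Subtype.ext i.2.2⟩
          left_inv := fun _ => rfl
          right_inv := fun _ => rfl }
    rw [← Nat.card_congr (Equiv.sigmaFiberEquiv ψ), Nat.card_sigma]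
    simp only [hψ]
    rw [Finset.sum_const, Finset.card_univ, ← Nat.card_eq_fintype_card, Nat.card_coe_set_eq,
      Set.ncard_sdiff_singleton_of_mem hFx0, smul_eq_mul, hf, Nat.card_coe_set_eq]
  -- one class of involutions in the normalizer
  have hnotcent : ∀ u w : G, u ∈ N → w ∈ N → orderOf u = 2 → orderOf w = 2 → u ≠ w →
      u * w ≠ w * u := by
    intro u w hu hw hu2 hw2 hne hcomm
    have key : ∀ s ∈ N, orderOf s = 2 → s * d * s⁻¹ = d⁻¹ := by
      intro s hsN hs2
      obtain ⟨j, hj⟩ := Subgroup.mem_zpowers_iff.1 (hNd s hsN)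
      have hss : s * s = 1 := Cfsg.Agent.H28.mul_self_of_orderOf_two hs2
      have hjj : d ^ (j * j) = d := by
        rw [zpow_mul, hj, conj_zpow, hj, inv_eq_of_mul_eq_one_right hss]
        calc s * (s * d * s) * s = (s * s) * d * (s * s) := by group
          _ = d := by rw [hss, one_mul, mul_one]
      have hdiv : ((7 : ℕ) : ℤ) ∣ j * j - 1 := by
        rw [← hd7, orderOf_dvd_sub_iff_zpow_eq_zpow, hjj, zpow_one]
      rw [show j * j - 1 = (j - 1) * (j + 1) by ring] at hdiv
      rcases (Nat.prime_iff_prime_int.1 (by norm_num : Nat.Prime 7)).dvd_mul.1 hdiv with h' | h'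
      · exfalso
        refine h.seven_inv hd7 hs2 ?_
        have e : d ^ j = d ^ (1 : ℤ) := orderOf_dvd_sub_iff_zpow_eq_zpow.1 (by rw [hd7]; exact h')
        rw [zpow_one, hj] at e
        exact (mul_inv_eq_iff_eq_mul.1 e).symm
      · have e : d ^ j = d ^ (-1 : ℤ) := orderOf_dvd_sub_iff_zpow_eq_zpow.1
          (by rw [hd7, sub_neg_eq_add]; exact h')
        rw [← hj, e, zpow_neg_one]
    have hu' := Cfsg.Agent.H28.mul_self_of_orderOf_two hu2
    have hw' := Cfsg.Agent.H28.mul_self_of_orderOf_two hw2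
    refine h.seven_inv hd7 (s := u * w) (orderOf_two ?_ fun e => hne ?_)
      (mul_inv_eq_iff_eq_mul.1 ?_).symm
    · rw [mul_assoc, ← mul_assoc w, ← hcomm, mul_assoc u w w, hw', mul_one, hu']
    · rw [mul_eq_one_iff_eq_inv.1 e, inv_eq_of_mul_eq_one_right hw']
    · calc u * w * d * (u * w)⁻¹ = u * (w * d * w⁻¹) * u⁻¹ := by group
        _ = (u * d * u⁻¹)⁻¹ := by rw [key w hw hw2]; group
        _ = d := by rw [key u hu hu2, inv_inv]
  have h4 : ¬ 4 ∣ Nat.card N := by
    intro hd4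
    obtain ⟨R, hR⟩ := Sylow.exists_subgroup_card_pow_prime (G := N) 2 (n := 2) (by norm_num; exact hd4)
    have hR2 : IsPGroup 2 (R.map N.subtype : Subgroup G) := (IsPGroup.of_card hR).map _
    have hsq := h.two_sq _ hR2
    obtain ⟨u, hu, hu1⟩ : ∃ u ∈ R, u ≠ 1 := by
      apply (Subgroup.nontrivial_iff_exists_ne_one R).1
      exact Finite.one_lt_card_iff_nontrivial.1 (by rw [hR]; norm_num)
    obtain ⟨w, hw, hw1, hwu⟩ : ∃ w ∈ R, w ≠ 1 ∧ w ≠ u := by
      by_contra! hne
      have h1 : (R : Set N).ncard ≤ ({1, u} : Set N).ncard := Set.ncard_le_ncard fun w hw => by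
        by_cases hw1 : w = 1
        · exact Or.inl hw1
        · exact Or.inr (hne w hw hw1)
      rw [← Nat.card_coe_set_eq] at h1
      have h2 : ({1, u} : Set N).ncard ≤ 2 := le_trans (Set.ncard_insert_le _ _) (by simp)
      have : Nat.card (R : Set N) = 4 := hR
      omega
    have hru : (u : G) ∈ R.map N.subtype := ⟨u, hu, rfl⟩
    have hrw : (w : G) ∈ R.map N.subtype := ⟨w, hw, rfl⟩
    refine hnotcent u w u.2 w.2 (orderOf_two (hsq _ hru) (by simpa using hu1))
      (orderOf_two (hsq _ hrw) (by simpa using hw1)) (fun e => hwu (Subtype.ext e.symm)) ?_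
    have e := hsq _ (mul_mem hru hrw)
    calc (u : G) * w = (u : G) * ((u * w) * (u * w)) * w := by rw [e, mul_one]
      _ = ((u : G) * u) * w * u * ((w : G) * w) := by group
      _ = w * u := by rw [hsq _ hru, hsq _ hrw, one_mul, mul_one]
  have hIdvd : Nat.card I ∣ Nat.card N := by
    have h2N : 2 ∣ Nat.card N := by
      have hpos : 0 < Nat.card I := by rw [hI]; omega
      obtain ⟨⟨i, hiN, hi⟩⟩ := (Nat.card_pos_iff.1 hpos).1
      exact hi ▸ Subgroup.orderOf_dvd_natCard N hiN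
    obtain ⟨r, hr⟩ := h2N
    have hr2 : ¬ 2 ∣ r := fun ⟨c, hc⟩ => h4 ⟨c, by omega⟩
    have hpos : 0 < Nat.card I := by rw [hI]; omega
    obtain ⟨i₀⟩ := (Nat.card_pos_iff.1 hpos).1
    let K := (Subgroup.centralizer ({i₀.1} : Set G)).subgroupOf N
    let ρ : N ⧸ K → I := fun c => ⟨(c.out : G) * i₀.1 * (c.out : G)⁻¹,
      mul_mem (mul_mem c.out.2 i₀.2.1) (inv_mem c.out.2),
      by rw [Cfsg.Agent.H28.orderOf_conj_eq, i₀.2.2]⟩
    have hρ : Function.Bijective ρ := by
      constructor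
      · intro a b e
        have e' : (a.out : G) * i₀.1 * (a.out : G)⁻¹ = (b.out : G) * i₀.1 * (b.out : G)⁻¹ :=
          congrArg Subtype.val e
        rw [← QuotientGroup.out_eq' a, ← QuotientGroup.out_eq' b, QuotientGroup.eq,
          Subgroup.mem_subgroupOf, Subgroup.mem_centralizer_singleton_iff]
        show (a.out : G)⁻¹ * (b.out : G) * i₀.1 = i₀.1 * ((a.out : G)⁻¹ * (b.out : G))
        calc (a.out : G)⁻¹ * (b.out : G) * i₀.1
            = (a.out : G)⁻¹ * ((b.out : G) * i₀.1 * (b.out : G)⁻¹) * (b.out : G) := by group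
          _ = i₀.1 * ((a.out : G)⁻¹ * (b.out : G)) := by rw [← e']; group
      · rintro ⟨i, hiN, hi⟩
        obtain ⟨k, hk, hki⟩ := exists_conj_zpowers (K := N) (p := 2) hr hr2 i₀.2.1 hiN i₀.2.2 hi
        have hk' : k * i₀.1 * k⁻¹ = i := by
          obtain ⟨j, hj⟩ := Subgroup.mem_zpowers_iff.1 hki
          rw [← zpow_mod_orderOf, hi] at hj
          rcases Int.emod_two_eq_zero_or_one j with e | e <;> rw [show ((2 : ℕ) : ℤ) = 2 from rfl, e] at hj
          · rw [zpow_zero, eq_comm, mul_inv_eq_one, mul_eq_left] at hj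
            exact absurd hj (Cfsg.Agent.H28.ne_one_of_orderOf_two i₀.2.2)
          · rw [zpow_one] at hj; exact hj.symm
        refine ⟨(⟨k, hk⟩ : N), Subtype.ext ?_⟩
        obtain ⟨c, hc⟩ := QuotientGroup.mk_out_eq_mul K (⟨k, hk⟩ : N)
        show ((QuotientGroup.mk (⟨k, hk⟩ : N) : N ⧸ K).out : G) * i₀.1 * _⁻¹ = i
        rw [hc]
        have hcc : (c.1 : G) * i₀.1 = i₀.1 * (c.1 : G) := Subgroup.mem_centralizer_singleton_iff.1 c.2
        show k * (c.1 : G) * i₀.1 * (k * (c.1 : G))⁻¹ = i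
        rw [mul_assoc k, hcc, ← hk']
        group
    rw [← Nat.card_congr (Equiv.ofBijective ρ hρ), ← Subgroup.index_eq_card]
    exact K.index_dvd_card
  have hf' : f = 2 := by
    rw [hI, hNcard] at hIdvd
    have h3 : f - 1 ∣ f * 3 := (Nat.mul_dvd_mul_iff_right (by norm_num : 0 < 7)).1
      (by rwa [show f * 3 * 7 = f * 21 by ring])
    have h3' : f - 1 ∣ 3 := by
      have hco : Nat.Coprime (f - 1) f := by
        have : Nat.Coprime (f - 1) (f - 1 + 1) := Nat.coprime_self_add_right.2 (Nat.coprime_one_right _)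
        rwa [show f - 1 + 1 = f by omega] at this
      exact hco.dvd_of_dvd_mul_left h3
    rcases (Nat.dvd_prime Nat.prime_three).1 h3' with e | e
    · omega
    · exfalso
      exact h4 ⟨21, by rw [hNcard]; omega⟩
  refine ⟨by omega, ?_⟩
  -- elements commuting with `d`
  have key : ∀ q : G, orderOf q = 3 → d * q ≠ q * d := by
    intro q hq hc
    have hqN : q ∈ N := mem_normalizer_zpowers (by
      rw [← hc, mul_inv_cancel_right]; exact Subgroup.mem_zpowers d)
    have hq3 : q ^ 3 = 1 := hq ▸ pow_orderOf_eq_one q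
    have hqM : q ∈ M := by
      rw [← hfix0]
      by_contra hne
      have hb := hNFx q hqN a₀ hFx0
      obtain ⟨x, y, hxy, hset⟩ := Set.ncard_eq_two.1 (show Fx.ncard = 2 by
        rw [← Nat.card_coe_set_eq, ← hf, hf'])
      have hcases : ∀ z ∈ Fx, z = a₀ ∨ z = q • a₀ := by
        intro z hz
        rw [hset] at hz hb hFx0
        rcases hz with rfl | rfl <;> rcases hb with hb | hb <;> rcases hFx0 with h0 | h0 <;>
          first
            | exact Or.inl h0.symm
            | exact Or.inr hb.symm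
            | exact absurd (hb.trans h0.symm) hne
      rcases hcases _ (hNFx q hqN _ hb) with e | e
      · apply hne
        calc q • a₀ = q • (q • (q • a₀)) := by rw [e]
          _ = (q ^ 3) • a₀ := by rw [smul_smul, smul_smul, pow_three, mul_assoc]
          _ = a₀ := by rw [hq3, one_smul]
      · exact hne (smul_left_cancel q e)
    -- `q` fixes an involution of `M`
    let π : ℕ → G := fun i => d ^ i * t * (d ^ i)⁻¹
    have hπinj : ∀ i j : Fin 7, π i = π j → i = j := by
      intro i j e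
      set c := (d ^ (j : ℕ))⁻¹ * d ^ (i : ℕ) with hc'
      have hct : c * t = t * c := by
        calc c * t = (d ^ (j : ℕ))⁻¹ * π i * d ^ (i : ℕ) := by simp only [π, hc']; group
          _ = t * c := by rw [e]; simp only [π, hc']; group
      by_cases hc1 : c = 1
      · refine Fin.ext (pow_injOn_Iio_orderOf (x := d) ?_ ?_ (inv_mul_eq_one.1 hc1).symm)
        · rw [Set.mem_Iio, hd7]; exact i.2
        · rw [Set.mem_Iio, hd7]; exact j.2
      · exfalso
        refine h.seven_inv (orderOf_eq_prime ?_ hc1) h.t_order hct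
        have hd' : d ^ 7 = 1 := hd7 ▸ pow_orderOf_eq_one d
        rw [hc', ((Commute.refl d).pow_pow _ _).inv_left.mul_pow, inv_pow, ← pow_mul, ← pow_mul,
          mul_comm (j : ℕ), mul_comm (i : ℕ), pow_mul, pow_mul, hd', one_pow, one_pow, inv_one, one_mul]
    have hsurj : ∀ s : G, orderOf s = 2 → s ∈ M → ∃ i : Fin 7, π i = s := by
      intro s hs hsM
      let e : Fin 7 → {s : G // orderOf s = 2 ∧ s ∈ M} := fun i =>
        ⟨π i, by simp only [π]; rw [Cfsg.Agent.H28.orderOf_conj_eq, h.t_order],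
          mul_mem (mul_mem (pow_mem hdM _) htM) (inv_mem (pow_mem hdM _))⟩
      have hbij := (Nat.bijective_iff_injective_and_card e).2
        ⟨fun i j eq => hπinj i j (congrArg Subtype.val eq), by rw [Nat.card_fin, h.inv7]⟩
      obtain ⟨i, hi⟩ := hbij.2 ⟨s, hs, hsM⟩
      exact ⟨i, congrArg Subtype.val hi⟩
    obtain ⟨i, hi⟩ := hsurj (q * t * q⁻¹) (by rw [Cfsg.Agent.H28.orderOf_conj_eq, h.t_order])
      (mul_mem (mul_mem hqM htM) (inv_mem hqM))
    set e := (d ^ (i : ℕ))⁻¹ * q with he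
    have hci : Commute d q := hc
    have hed : e * d = d * e := by
      have h1 : Commute ((d ^ (i : ℕ))⁻¹) d := ((Commute.refl d).pow_left _).inv_left
      exact (h1.mul_left hci.symm).eq
    have het : e * t = t * e := by
      have e1 : d ^ (i : ℕ) * t * (d ^ (i : ℕ))⁻¹ = q * t * q⁻¹ := hi
      calc e * t = (d ^ (i : ℕ))⁻¹ * (q * t * q⁻¹) * q := by rw [he]; group
        _ = t * e := by rw [← e1, he]; group
    have he21 : e ^ 21 = 1 := by
      have hcq : Commute ((d ^ (i : ℕ))⁻¹) q := (hci.pow_left _).inv_left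
      have hd' : d ^ 7 = 1 := hd7 ▸ pow_orderOf_eq_one d
      rw [he, hcq.mul_pow, inv_pow, ← pow_mul, show (i : ℕ) * 21 = 7 * (3 * i) by ring, pow_mul, hd',
        one_pow, inv_one, one_mul, show 21 = 3 * 7 from rfl, pow_mul, hq3, one_pow]
    have he3 : e ^ 3 = 1 := by
      have h1 : orderOf e ∣ 24 := h.cardC ▸ Subgroup.orderOf_dvd_natCard _
        (Subgroup.mem_centralizer_singleton_iff.2 het)
      exact orderOf_dvd_iff_pow_eq_one.1 (show orderOf e ∣ Nat.gcd 24 21 from
        Nat.dvd_gcd h1 (orderOf_dvd_of_pow_eq_one he21))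
    have he1 : e ≠ 1 := by
      intro e0
      rw [he, inv_mul_eq_one] at e0
      have : q ^ 7 = 1 := by
        rw [← e0, ← pow_mul, mul_comm, pow_mul, show d ^ 7 = 1 from hd7 ▸ pow_orderOf_eq_one d, one_pow]
      have := hq ▸ orderOf_dvd_of_pow_eq_one this
      norm_num at this
    have he' : orderOf e = 3 := orderOf_eq_prime he3 he1
    have hs : orderOf (d * t * d⁻¹) = 2 := by rw [Cfsg.Agent.H28.orderOf_conj_eq, h.t_order]
    have hsM : d * t * d⁻¹ ∈ M := mul_mem (mul_mem hdM htM) (inv_mem hdM)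
    have hes : e * (d * t * d⁻¹) = d * t * d⁻¹ * e := by
      have h1 : Commute e d := hed
      exact ((h1.mul_right het).mul_right h1.inv_right).eq
    have := h.noFour e t (d * t * d⁻¹) he' h.t_order hs
      (h.inv_comm t htM _ hsM h.t_order hs) het hes
    exact h.seven_inv hd7 h.t_order (mul_inv_eq_iff_eq_mul.1 this.symm)
  intro d' q hd' hq hc
  -- conjugate to `d`
  have hG : Nat.card (⊤ : Subgroup G) = 7 * 216 := by
    rw [Subgroup.card_top, ← M.index_mul_card, h.cardM]
    omega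
  obtain ⟨g, -, hg⟩ := exists_conj_zpowers hG (by norm_num : ¬ 7 ∣ 216)
    (Subgroup.mem_top d) (Subgroup.mem_top d') hd7 hd'
  obtain ⟨j, hj⟩ := Subgroup.mem_zpowers_iff.1 hg
  have hcq : Commute (g * d * g⁻¹) q := hj ▸ (Commute.zpow_left hc j)
  refine key (g⁻¹ * q * g) ?_ ?_
  · have := Cfsg.Agent.H28.orderOf_conj_eq g⁻¹ q
    rw [inv_inv] at this
    rw [this, hq]
  · calc d * (g⁻¹ * q * g) = g⁻¹ * ((g * d * g⁻¹) * q) * g := by group
      _ = g⁻¹ * q * g * d := by rw [hcq.eq]; group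

end Cfsg.Agent.H23.S1245.Three
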